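import Mathlib
import Cfsg.Agent.Base
import Cfsg.Agent.Lib.Root.Lines

/-! Classes of abstract root subgroups: incomparability, generation, specialness, quasisimplicity (helper89). -/

set_option autoImplicit false

namespace H89
open Cfsg

variable {G : Type*} [Group G] {S : Set (Subgroup G)} {A B C D E F : Subgroup G}

/-- a conjugation invariant transitive relation `≤` such that comparable members are never opposite is symmetric on
commuting pairs with a common opposite. -/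
theorem rel_symm_of_triangle (R : Subgroup G → Subgroup G → Prop)
    (hcj : ∀ P Q g, R P Q → R (cj g P) (cj g Q)) (htr : ∀ P Q T, R P Q → R Q T → R P T)
    (hno : ∀ g, R (cj g B) B → ¬ RO B (cj g B)) (h1 : RO A B) (h2 : RO C B) (hAC : Cm A C)
    (h : R A C) : R C A := by
  have key : ∀ c ∈ C, c ≠ 1 → ∃ a ∈ A, ∃ b, cj b A = cj a B ∧ cj b C = cj c B ∧ R (cj (c⁻¹ * a) B) B := by
    intro c hc hc1
    obtain ⟨b, hb, hb1, e⟩ := h2.exl hc hc1
    obtain ⟨a, ha, -, e'⟩ := h1.exr hb hb1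
    refine ⟨a, ha, b, e', e, ?_⟩
    have := hcj _ _ c⁻¹ (hcj _ _ b h)
    rwa [e, e', cj_inv_cj, cj_cj] at this
  obtain ⟨c, hc, hc1⟩ := exists_ne_one h2.left_ne_bot
  obtain ⟨a₁, ha₁, b, e1, e2, r1⟩ := key c hc hc1
  obtain ⟨a₂, ha₂, -, -, -, r2⟩ := key c⁻¹ (C.inv_mem hc) (inv_ne_one.2 hc1)
  have r3 := htr _ _ _ (hcj _ _ (c⁻¹ * a₁) r2) r1
  have e3 : c⁻¹ * a₁ * (c⁻¹⁻¹ * a₂) = a₁ * a₂ := by
    rw [inv_inv, mul_assoc, ← mul_assoc a₁, hAC a₁ ha₁ c hc]; group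
  rw [cj_cj, e3] at r3
  have e4 : a₁ * a₂ = 1 := by
    by_contra hne
    exact hno _ r3 (h1.ro_cj (A.mul_mem ha₁ ha₂) hne)
  have r4 := hcj _ _ (b⁻¹ * c * (c⁻¹ * a₁)) r2
  rw [cj_cj, mul_assoc (b⁻¹ * c), e3, e4, mul_one, ← cj_cj, ← e2, cj_inv_cj,
    show b⁻¹ * c * (c⁻¹ * a₁) = b⁻¹ * a₁ by group, ← cj_cj, ← e1, cj_inv_cj] at r4
  exact r4

theorem RS.cent_symm (hS : RS S) (hA : A ∈ S) (hC : C ∈ S) (hn : NI S C)
    (h : ∀ E ∈ S, Cm E A → Cm E C) : ∀ E ∈ S, Cm E C → Cm E A := by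
  obtain ⟨B, hB, h2⟩ := hn
  have hAC : Cm A C := h A hA (hS.cm A hA)
  have h1 : RO A B := by
    rcases hS.pair A hA B hB with k | k | k
    · exact absurd (h B hB k.symm).symm h2.not_cm
    · exact k
    · exfalso
      obtain ⟨b, hb, hb1⟩ := exists_ne_one h2.right_ne_bot
      have k1 : Cm (cj b A) C := (hAC.sup_left (h _ k.mem k.cm_left)).mono (cj_le_sup_comm hb) le_rfl
      have k2 := k1.conj b⁻¹
      rw [cj_inv_cj] at k2
      have k3 := hAC.sup_right k2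
      rw [h2.symm.sup_cj (B.inv_mem hb) (inv_ne_one.2 hb1)] at k3
      exact hS.cc_not_cm k (k3.mono le_rfl le_sup_left)
  refine rel_symm_of_triangle (fun P Q => ∀ E ∈ S, Cm E P → Cm E Q) ?_ ?_ ?_ h1 h2 hAC h
  · intro P Q g k E hE k1
    have := k _ (hS.cj_mem E hE g⁻¹) (by simpa only [cj_inv_cj] using k1.conj g⁻¹)
    simpa only [cj_cj_inv] using this.conj g
  · exact fun P Q T k1 k2 E hE k => k2 E hE (k1 E hE k)
  · exact fun g k k1 => k1.not_cm (k _ (hS.cj_mem B hB g) (hS.cm _ (hS.cj_mem B hB g))).symm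

theorem RS.exists_nonopposite (hS : RS S) (hni : ∀ A ∈ S, NI S A) (hA : A ∈ S) (hE : E ∈ S)
    (h : CC S A C) (h1 : RO ⁅A, C⁆ E) : ∃ c ∈ C, ¬ RO (cj c A) E := by
  obtain ⟨D, hD, k1, k2, k3, k4⟩ := hS.line_nonopposite hni h.mem hE h1 (hS.cc_line hA (hni A hA) h)
  rcases hS.cc_members hA (hni A hA) h hD (by rw [sup_comm, k4]; exact le_sup_right) with ⟨c, hc, rfl⟩ | e
  · exact ⟨c, hc, hS.cc_not_ro hD k1⟩
  · exact absurd (e ▸ h1) (hS.cc_not_ro hD k1)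

theorem RS.opp_symm (hS : RS S) (hni : ∀ A ∈ S, NI S A) (hA : A ∈ S) (hC : C ∈ S)
    (h : ∀ E ∈ S, RO A E → RO C E) : Cm A C ∧ ∀ E ∈ S, RO C E → RO A E := by
  have hAC : Cm A C := by
    rcases hS.pair A hA C hC with k | k | k
    · exact k
    · exact absurd rfl (h C hC k).ne
    · exfalso
      have k1 : ∀ E ∈ S, RO A E → ¬ RO ⁅A, C⁆ E := by
        intro E hE k2 k3
        rw [Subgroup.commutator_comm] at k3
        obtain ⟨a, ha, k4⟩ := hS.exists_nonopposite hni hC hE k.symm k3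
        have := h _ (hS.cj_mem E hE a⁻¹) (k2.ro_left_cj (A.inv_mem ha))
        exact k4 (by simpa only [cj_cj_inv] using this.conj a)
      obtain ⟨E, hE, k2⟩ := hni _ k.mem
      obtain ⟨c, hc, hc1⟩ := exists_ne_one (hS.ne_bot C hC)
      obtain ⟨f, hf, hf1⟩ := exists_ne_one k2.left_ne_bot
      have hcf : cj c ⁅A, C⁆ = ⁅A, C⁆ := k.cm_right.symm.cj_eq hc
      refine hS.not_two_nonopposite k2 hE hA (hS.cj_mem A hA c) (k.cm_cj (hS.cm A hA) hc) k.cm_left.symm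
        (hcf ▸ k.cm_left.symm.conj c) (fun k3 => k1 E hE k3 k2) (fun k3 => ?_) hf hf1
        (by rw [k.sup_cj hc hc1]; exact mem_sup_r hf)
      refine k1 _ (hS.cj_mem E hE c⁻¹) (by simpa only [cj_inv_cj] using k3.conj c⁻¹) ?_
      have := k2.conj c⁻¹
      rwa [cj_inv_eq_self hcf] at this
  obtain ⟨B, hB, h1⟩ := hni A hA
  refine ⟨hAC, rel_symm_of_triangle (fun P Q => ∀ E ∈ S, RO P E → RO Q E) ?_ ?_ ?_ h1 (h B hB h1) hAC h⟩
  · intro P Q g k E hE k1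
    have := k _ (hS.cj_mem E hE g⁻¹) (by simpa only [cj_inv_cj] using k1.conj g⁻¹)
    simpa only [cj_cj_inv] using this.conj g
  · exact fun P Q T k1 k2 E hE k => k2 E hE (k1 E hE k)
  · exact fun g k k1 => (k B hB k1.symm).ne rfl

/-- for a non-degenerate class, `G = ⟨Λ_A, B⟩`. -/
theorem RS.line_generation (hS : RS S) (hni : ∀ A ∈ S, NI S A) (hA : A ∈ S) (hB : B ∈ S) (h : RO A B)
    {R : Subgroup G} (h1 : ∀ C ∈ linePartners S A, C ≤ R) (h2 : B ≤ R) (hC : C ∈ linePartners S A) :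
    ∃ r ∈ R, C = cj r A := by
  obtain ⟨D, hD, k1, k2, k3, k4⟩ := hS.line_nonopposite hni hA hB h hC
  have hDl : D ∈ linePartners S A := line_symm hD (k3 ▸ hS.cc_line hA (hni A hA) k2)
  have hK : ⁅D, B⁆ ≤ R := (Subgroup.commutator_le_sup _ _).trans (sup_le (h1 D hDl) h2)
  obtain ⟨κ, hκ, hκ1⟩ := exists_ne_one (hS.ne_bot _ k1.mem)
  obtain ⟨K, hKa⟩ := hS.exists_axis hni hA hC hA le_sup_left
  obtain ⟨hCS, hne, -, -⟩ := mem_line_iff.1 hC
  obtain ⟨l1, l2, -⟩ := hKa.2.2.2 C hCS le_sup_right hne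
  have hKl : K ∈ linePartners S A := by
    have := hS.cc_line hKa.1 (hni K hKa.1) l1.symm
    rwa [Subgroup.commutator_comm, l2] at this
  obtain ⟨y, hy, e⟩ := hS.axis_trans hni hKa (hS.cj_mem A hA κ)
    (by rw [k4, ← k3]; exact cj_le_sup_comm hκ) (fun e => hκ1 (hS.cc_cj_ne (hni A hA) k2 hκ e))
    hCS le_sup_right hne
  exact ⟨y * κ, R.mul_mem (h1 K hKl hy) (hK hκ), by rw [e, cj_cj]⟩

theorem RS.econnected (hS : RS S) (hni : ∀ A ∈ S, NI S A) (hl : ∀ A ∈ S, ∃ C, C ∈ linePartners S A)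
    (h : FR S A B) : Relation.ReflTransGen (EAdj S S) A B := by
  induction h with
  | refl => exact Relation.ReflTransGen.refl
  | @tail P Q _ h2 ih =>
    obtain ⟨C, hC⟩ := hl P h2.1
    obtain ⟨⟨D, hD, h⟩, -⟩ := hS.exists_line_cc hni h2.1 h2.2.1 h2.2.2 hC
    have k1 := hS.cc_line hD.1.1 (hni _ hD.1.1) h
    have k2 := hS.cc_line h2.2.1 (hni _ h2.2.1) h.symm
    rw [Subgroup.commutator_comm] at k2
    exact ((ih.tail ⟨h2.1, hD.1.1, hD⟩).tail ⟨hD.1.1, h.mem, line_symm h.mem k1⟩).tail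
      ⟨h.mem, h2.2.1, k2⟩

theorem RS.generated_by_lines (hS : RS S) (hni : ∀ A ∈ S, NI S A)
    (hl : ∀ A ∈ S, ∃ C, C ∈ linePartners S A) (hA : A ∈ S) (hB : B ∈ S) (h : RO A B)
    {R : Subgroup G} (h1 : ∀ C ∈ linePartners S A, C ≤ R) (h2 : B ≤ R) (hE : FR S A E) :
    A ≤ R ∧ ∃ r ∈ R, E = cj r A := by
  refine ⟨?_, ?_⟩
  · obtain ⟨C, hC⟩ := hl A hA
    obtain ⟨r, hr, e⟩ := hS.line_generation hni hA hB h h1 h2 hC
    rw [cj_eq_iff.1 e.symm]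
    exact cj_le_of_mem (h1 C hC) (R.inv_mem hr)
  have := hS.econnected hni hl hE
  clear hE
  induction this with
  | refl => exact ⟨1, R.one_mem, (cj_one _).symm⟩
  | @tail P Q _ k ih =>
    obtain ⟨r, hr, rfl⟩ := ih
    have := hS.line_cj k.2.2 r⁻¹
    rw [cj_inv_cj] at this
    obtain ⟨r', hr', e⟩ := hS.line_generation hni hA hB h h1 h2 this
    exact ⟨r * r', R.mul_mem hr hr', by rw [← cj_cj, ← e, cj_cj_inv]⟩

/-- in the commutator case there is a member commuting with `A` and opposite to `B`. -/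
theorem RS.exists_cm_ro_of_cc (hS : RS S) (hni : ∀ A ∈ S, NI S A) (hA : A ∈ S) (hB : B ∈ S)
    (h : CC S A B) : ∃ K ∈ S, Cm A K ∧ RO B K := by
  have hl := line_symm h.mem (hS.cc_line hA (hni A hA) h)
  obtain ⟨K, hK⟩ := hS.exists_axis hni hA hl hA le_sup_left
  obtain ⟨l1, l2, -⟩ := hK.2.2.2 _ h.mem le_sup_right (hS.cc_ne h).symm
  have hAK : Cm A K := hK.cm h.mem le_sup_right (hS.cc_ne h).symm
  refine ⟨K, hK.1, hAK, ?_⟩
  rcases hS.pair B hB K hK.1 with k | k | k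
  · exfalso
    exact hS.cc_not_cm l1 ((hAK.sup_left k).mono (Subgroup.commutator_le_sup _ _) le_rfl)
  · exact k
  · exfalso
    -- `[B, K]` commutes with `B` and `K`; conjugates of `B` by `K` commute with `B`
    obtain ⟨κ, hκ, hκ1⟩ := exists_ne_one (hS.ne_bot K hK.1)
    have k1 : Cm B (cj κ B) := k.cm_cj (hS.cm B hB) hκ
    have k2 : cj κ ⁅A, B⁆ = ⁅A, cj κ B⁆ := by rw [cj_commutator, hAK.symm.cj_eq hκ]
    obtain ⟨b, hb, hb1⟩ := exists_ne_one (hS.ne_bot B hB)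
    -- `b` normalises `cj κ [A,B]`, which is a point of the line different from `[A,B]`
    have k3 : ⁅A, B⁆ ⊔ cj κ ⁅A, B⁆ = ⁅A, B⁆ ⊔ A := by rw [l1.sup_cj hκ hκ1, l2]
    have hQ := hS.cj_mem _ h.mem κ
    have hQL : cj κ ⁅A, B⁆ ≤ A ⊔ ⁅A, B⁆ := by rw [sup_comm, ← k3]; exact le_sup_right
    have hne : cj κ ⁅A, B⁆ ≠ ⁅A, B⁆ := fun e => hκ1 (hS.cc_cj_ne (hni _ h.mem) l1 hκ e)
    have ax := hS.axis_of_cc hA (hni A hA) hB h
    obtain ⟨m1, -, -⟩ := ax.2.2.2 _ hQ hQL hne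
    have m2 : Cm (cj κ ⁅A, B⁆) (cj κ B) := h.cm_right.conj κ
    -- `[Q, B] = [A, B]` and `Q` commutes with `cj κ B ≤ B [B,K]`
    have m3 : cj b (cj κ ⁅A, B⁆) = cj κ ⁅A, B⁆ := by
      have n1 : cj b (A ⊔ ⁅A, B⁆) = A ⊔ ⁅A, B⁆ := h.cj_sup hb
      have n2 : cj b (cj κ B) = cj κ B := k1.cj_eq hb
      have n3 : cj κ (A ⊔ ⁅A, B⁆) = A ⊔ ⁅A, B⁆ := hK.cj_line h.mem le_sup_right (hS.cc_ne h).symm hκ
      have ax2 := hS.axis_cj ax κ
      have ax3 := hS.axis_cj ax2 b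
      rw [n3] at ax2
      rw [n3, n1, n2] at ax3
      by_contra hne2
      have p1 := (ax2.2.2.2 _ ax3.2.1 ax3.2.2.1 hne2).1
      exact hS.cc_not_cm p1 (ax3.cm hQ hQL (Ne.symm hne2))
    exact hb1 (hS.cc_cj_ne (hni _ hQ) m1 hb m3)

end H89
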