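import Mathlib
import Cfsg.Agent.Base
import Cfsg.Agent.Lib.Root.Classes

/-! Specialness of rank one pairs in a connected set with two different commuting members (helper89). -/

set_option autoImplicit false

namespace H89
open Cfsg

variable {G : Type*} [Group G] {S : Set (Subgroup G)} {A B C D E F : Subgroup G}

/-- the exceptional configuration: every member different from `A` commuting with `A` also commutes with the
partner `B`, although there is a triangle `(A, C; E)`. Then `A` has exponent two or order three. -/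
theorem RS.exceptional (hS : RS S) (hA : A ∈ S) (hE : E ∈ S) (h : RO A B) (h1 : RO A E) (h2 : RO C E)
    (hAC : Cm A C) (hne : A ≠ C) (hex : ∀ P ∈ S, P ≠ A → Cm A P → Cm P B)
    {e₁ e₂ : G} (he₁ : e₁ ∈ E) (he₂ : e₂ ∈ E) (n1 : e₁ * e₁ ≠ 1) (n2 : e₂ ≠ 1) (n3 : e₂ * e₁ ≠ 1)
    (n4 : e₂ * e₁ * e₁ ≠ 1) : False := by
  have hAA := hS.cm A hA
  have hEE := hS.cm E hE
  obtain ⟨e₀, he₀, he₀1⟩ := exists_ne_one h1.right_ne_bot
  obtain ⟨a₀, ha₀, -, q1⟩ := h1.exr he₀ he₀1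
  obtain ⟨c₀, hc₀, -, q2⟩ := h2.exr he₀ he₀1
  have hED : Cm (cj (c₀⁻¹ * a₀) E) E := by
    have := (hAC.conj e₀).conj c₀⁻¹
    rwa [q1, q2, cj_inv_cj, cj_cj] at this
  have hDE : cj (c₀⁻¹ * a₀) E ≠ E := by
    intro e
    rw [← cj_cj, ← q1, cj_eq_iff, inv_inv, ← q2, cj_inj] at e
    exact hne e
  have htA : ∀ y ∈ A, Commute (c₀⁻¹ * a₀) y := fun y hy =>
    Commute.mul_left (hAC y hy _ (C.inv_mem hc₀)).symm (hAA a₀ ha₀ y hy)
  generalize c₀⁻¹ * a₀ = t at hED hDE htA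
  have htA' : cj t A = A := cj_eq_of_comm htA
  let s : G → G := fun e => e * (t * e⁻¹ * t⁻¹)
  have hs : ∀ e, s e = e * (t * e⁻¹ * t⁻¹) := fun _ => rfl
  have s_mul : ∀ e ∈ E, ∀ e' ∈ E, s (e * e') = s e * s e' := by
    intro e he e' he'
    have k1 := hED _ (conj_mem_cj (E.inv_mem he)) e' he'
    have k2 := hEE e he e' he'
    simp only [hs]
    calc e * e' * (t * (e * e')⁻¹ * t⁻¹) = e * e' * (t * (e' * e)⁻¹ * t⁻¹) := by rw [k2]
      _ = e * (e' * (t * e⁻¹ * t⁻¹)) * (t * e'⁻¹ * t⁻¹) := by group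
      _ = _ := by rw [← k1]; group
  have s_mem : ∀ e ∈ E, s e ∈ E ⊔ cj t E := fun e he => mul_mem_sup' he (conj_mem_cj (E.inv_mem he))
  have s_E : ∀ e ∈ E, ∀ y ∈ E, Commute (s e) y := fun e he y hy =>
    Commute.mul_left (hEE e he y hy) (hED _ (conj_mem_cj (E.inv_mem he)) y hy)
  -- the conjugates of `A` by `s e`
  have point : ∀ e ∈ E, e ≠ 1 → ∃ a ∈ A, cj e A = cj a E ∧ cj (t * e * t⁻¹) A = cj a (cj t E) := by
    intro e he he1
    obtain ⟨a, ha, -, q⟩ := h1.exr he he1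
    refine ⟨a, ha, q, ?_⟩
    rw [← cj_cj, cj_inv_eq_self htA', ← cj_cj, q, cj_cj, cj_cj, (htA a ha).eq]
  have s_eq : ∀ e ∈ E, s e = (t * e * t⁻¹)⁻¹ * e := fun e he => by
    rw [hs, ← hED _ (conj_mem_cj (E.inv_mem he)) e he]; group
  have famA : ∀ e ∈ E, e ≠ 1 → Cm A (cj (s e) A) ∧ cj (s e) A ≠ A := by
    intro e he he1
    obtain ⟨a, ha, q1, q2⟩ := point e he he1
    constructor
    · have := (hED.conj a).conj (t * e * t⁻¹)⁻¹
      rwa [← q1, ← q2, cj_inv_cj, cj_cj, ← s_eq e he] at this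
    · intro e'
      rw [s_eq e he, ← cj_eq_cj_iff, q1, q2, cj_inj] at e'
      exact hDE e'.symm
  have famB : ∀ e ∈ E, e ≠ 1 → ∀ a ∈ A, ∀ b ∈ B, Commute (s e * a * (s e)⁻¹) b := fun e he he1 a ha b hb =>
    hex _ (hS.cj_mem A hA _) (famA e he he1).2 (famA e he he1).1 _ (conj_mem_cj ha) b hb
  have he₁1 : e₁ ≠ 1 := by rintro rfl; simp at n1
  obtain ⟨hAC', -⟩ := famA e₁ he₁ he₁1
  generalize hσ : s e₁ = σ at hAC'
  have hσE : cj σ E = E := cj_eq_of_comm (hσ ▸ s_E e₁ he₁)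
  let τ : G → G := fun a => a⁻¹ * (σ * a * σ⁻¹)
  have hτ : ∀ a, τ a = a⁻¹ * (σ * a * σ⁻¹) := fun _ => rfl
  have τ_mul : ∀ a ∈ A, ∀ a' ∈ A, τ (a * a') = τ a * τ a' := by
    intro a ha a' ha'
    have k1 := hAC' _ (A.inv_mem ha') _ (conj_mem_cj ha)
    have k2 := hAA a ha a' ha'
    simp only [hτ]
    calc (a * a')⁻¹ * (σ * (a * a') * σ⁻¹) = (a' * a)⁻¹ * (σ * (a * a') * σ⁻¹) := by rw [k2]
      _ = a⁻¹ * (a'⁻¹ * (σ * a * σ⁻¹)) * (σ * a' * σ⁻¹) := by group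
      _ = _ := by rw [k1]; group
  have famE : ∀ a ∈ A, Cm E (cj (τ a) E) := by
    intro a ha
    by_cases ha1 : a = 1
    · rw [ha1, hτ]; simp only [inv_one, mul_one, mul_inv_cancel, cj_one]; exact hEE
    obtain ⟨e, he, -, q⟩ := h1.exl ha ha1
    have := (hAC'.conj e).conj a⁻¹
    rw [q, cj_inv_cj, cj_cj e, ← (hσ ▸ s_E e₁ he₁ e he : Commute σ e).eq, ← cj_cj σ, q, cj_cj, cj_cj] at this
    rw [hτ, ← mul_assoc, ← cj_cj, cj_inv_eq_self hσE, ← mul_assoc]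
    exact this
  have famE2 : ∀ a ∈ A, ∀ a' ∈ A, Cm (cj (τ a) E) (cj (τ a') E) := by
    intro a ha a' ha'
    have := (famE _ (A.mul_mem (A.inv_mem ha) ha')).conj (τ a)
    rwa [cj_cj, ← τ_mul a ha _ (A.mul_mem (A.inv_mem ha) ha'), mul_inv_cancel_left] at this
  obtain ⟨a', ha', hD⟩ : ∃ a' ∈ A, cj (τ a') E = cj t E := by
    obtain ⟨a', ha', q1, q2⟩ := point e₁⁻¹ (E.inv_mem he₁) (inv_ne_one.2 he₁1)
    refine ⟨a', ha', ?_⟩
    rw [hτ, ← cj_cj, ← cj_cj, cj_inv_eq_self hσE, ← cj_cj, ← q1, cj_eq_iff, inv_inv, ← q2, cj_cj, ← hσ,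
      s_eq e₁ he₁]
    congr 1; group
  obtain ⟨a, ha, ha1⟩ := exists_ne_one h.left_ne_bot
  have hτ1 : cj (τ 1) E = E := by rw [hτ]; simp [cj_one]
  have V1 : Cm (E ⊔ cj t E) (E ⊔ cj t E) :=
    (hEE.sup_right hED.symm).sup_left (hED.sup_right (hEE.conj t))
  have V2 : Cm (cj (τ a⁻¹) (E ⊔ cj t E)) (E ⊔ cj t E) := by
    have ha2 := A.mul_mem (A.inv_mem ha) ha'
    rw [cj_sup, ← hD, cj_cj, ← τ_mul _ (A.inv_mem ha) _ ha']
    exact ((famE _ (A.inv_mem ha)).symm.sup_right (famE2 _ (A.inv_mem ha) _ ha')).sup_left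
      ((famE _ ha2).symm.sup_right (famE2 _ ha2 _ ha'))
  have hσm : σ ∈ E ⊔ cj t E := hσ ▸ s_mem e₁ he₁
  have hz : Commute (τ a⁻¹ * σ * (τ a⁻¹)⁻¹ * σ⁻¹) (s e₂) :=
    Commute.mul_left (V2 _ (conj_mem_cj hσm) _ (s_mem e₂ he₂)) (V1 _ (Subgroup.inv_mem _ hσm) _ (s_mem e₂ he₂))
  have ez : τ a⁻¹ * σ * (τ a⁻¹)⁻¹ * σ⁻¹ =
      a * (σ * a⁻¹ * σ⁻¹) * ((σ * σ) * a * (σ * σ)⁻¹) * (σ * a⁻¹ * σ⁻¹) := by
    rw [hτ]; group
  rw [ez] at hz
  have e21 : s (e₂ * e₁) = s e₂ * σ := by rw [s_mul _ he₂ _ he₁, hσ]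
  have e211 : s (e₂ * e₁ * e₁) = s e₂ * σ * σ := by rw [s_mul _ (E.mul_mem he₂ he₁) _ he₁, e21, hσ]
  have e11 : s (e₁ * e₁) = σ * σ := by rw [s_mul _ he₁ _ he₁, hσ]
  refine ha1 (h.eq_one_of_comm ha fun b hb => ?_)
  have c1 := famB e₁ he₁ he₁1 _ (A.inv_mem ha) b hb
  have c2 := famB _ (E.mul_mem he₁ he₁) n1 a ha b hb
  have c3 := famB e₂ he₂ n2 a ha b hb
  have c4 := famB _ (E.mul_mem he₂ he₁) n3 _ (A.inv_mem ha) b hb
  have c5 := famB _ (E.mul_mem (E.mul_mem he₂ he₁) he₁) n4 a ha b hb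
  rw [hσ] at c1
  rw [e11] at c2
  rw [e21] at c4
  rw [e211] at c5
  have c6 := ((c3.mul_left c4).mul_left c5).mul_left c4
  generalize s e₂ = r at *
  generalize hzz : a * (σ * a⁻¹ * σ⁻¹) * ((σ * σ) * a * (σ * σ)⁻¹) * (σ * a⁻¹ * σ⁻¹) = z at hz
  have e7 : r * a * r⁻¹ * (r * σ * a⁻¹ * (r * σ)⁻¹) * (r * σ * σ * a * (r * σ * σ)⁻¹) *
      (r * σ * a⁻¹ * (r * σ)⁻¹) = z := by
    calc _ = r * z * r⁻¹ := by rw [← hzz]; group
      _ = z := by rw [← hz.eq]; group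
  rw [e7] at c6
  have c7 := ((c6.mul_left c1.inv_left).mul_left c2.inv_left).mul_left c1.inv_left
  have e8 : z * (σ * a⁻¹ * σ⁻¹)⁻¹ * (σ * σ * a * (σ * σ)⁻¹)⁻¹ * (σ * a⁻¹ * σ⁻¹)⁻¹ = a := by
    rw [← hzz]; group
  rw [e8] at c7
  exact c7.eq

/-- In a set without commutator pairs in the component of `A`, if some member reachable from `A` differs from `A` and
commutes with it, every rank one pair `(A, B)` is special. -/
theorem RS.sp_of_degenerate (hS : RS S) (hA : A ∈ S) (hB : B ∈ S) (h : RO A B)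
    (hdeg : ∀ P ∈ S, ¬ CC S A P) (hC : FR S A C) (hne : A ≠ C) (hAC : Cm A C) : SP A B := by
  by_cases hex : ∀ P ∈ S, P ≠ A → Cm A P → Cm P B
  · -- find a triangle `(A, C'; E)`
    obtain ⟨C', E, hE, h1, h2, h3, h4⟩ : ∃ C' E, E ∈ S ∧ RO A E ∧ RO C' E ∧ Cm A C' ∧ A ≠ C' := by
      induction hC with
      | refl => exact absurd rfl hne
      | @tail P Q _ k ih =>
        by_cases hP : A ≠ P ∧ Cm A P
        · exact ih hP.1 hP.2
        rcases hS.pair A hA P k.1 with k1 | k1 | k1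
        · have e : A = P := by by_contra e; exact hP ⟨e, k1⟩
          exact absurd (e ▸ hAC) (RO.not_cm k.2.2)
        · exact ⟨Q, P, k.1, k1, RO.symm k.2.2, hAC, hne⟩
        · exact absurd k1 (hdeg P k.1)
    obtain ⟨x, -, rfl⟩ := h1.exists_cj_left_eq_right
    by_cases h5 : ∀ a ∈ A, a * a = 1
    · exact sp_of_sq h h5
    push Not at h5
    obtain ⟨a, ha, ha2⟩ := h5
    have key : ∀ y ∈ A, y = 1 ∨ y * a = 1 ∨ y * a * a = 1 := by
      intro y hy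
      by_contra hcon
      push Not at hcon
      refine hS.exceptional hA hE h h1 h2 h3 h4 hex (conj_mem_cj ha) (conj_mem_cj hy) ?_ ?_ ?_ ?_
      · simpa using ha2
      · simpa using hcon.1
      · simpa using hcon.2.1
      · simpa using hcon.2.2
    have h3 : a * a * a = 1 := by
      rcases key a ha with k | k | k
      · exact absurd (by simp [k]) ha2
      · exact absurd k ha2
      · exact k
    refine sp_of_three h ha2 fun y hy => ?_
    rcases key y hy with k | k | k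
    · exact Or.inl k
    · exact Or.inr (Or.inr (eq_inv_of_mul_eq_one_left k))
    · right; left
      exact mul_right_cancel (mul_right_cancel (k.trans h3.symm))
  · push Not at hex
    obtain ⟨P, hP, hPA, h1, h2⟩ := hex
    rcases hS.pair P hP B hB with k | k | k
    · exact absurd k h2
    · exact hS.sp_of_triangle hA hB h k h1 hPA.symm
    · exfalso
      obtain ⟨x, -, e1, e2⟩ := h.exists_swap
      have := hS.cc_conj k.symm x
      rw [e2] at this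
      exact hdeg _ (hS.cj_mem P hP x) this

end H89
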