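import Cfsg.Agent.Lib.Root.Rel
import Cfsg.Agent.Lib.Root.Quad1

/-! Root subgroups `{1 + c s}` attached to a family of square-zero elements of an algebra. -/

set_option autoImplicit false

namespace H89

open Cfsg

variable {Γ : Type*} [Group Γ] {R : Type*} [Ring R] (K : Type*) [Field K] [Algebra K R]

/-- the root group of `s` -/
def Rg (ρ : Γ →* R) (s : R) : Subgroup Γ := Subgroup.closure {g | ∃ c : K, ρ g = 1 + c • s}

/-- opposite square-zero elements -/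
def Opp (s t : R) : Prop := ∃ c : K, c ≠ 0 ∧ s * t * s = c • s ∧ t * s * t = c • t

/-- a linear family of root elements -/
structure LF (ρ : Γ →* R) (N : Set R) : Prop where
  inj : Function.Injective ρ
  sq : ∀ s ∈ N, s * s = 0
  ne : ∀ s ∈ N, s ≠ 0
  ex : ∀ s ∈ N, ∀ c : K, ∃ g, ρ g = 1 + c • s
  smul : ∀ s ∈ N, ∀ c : K, c ≠ 0 → c • s ∈ N
  conj : ∀ s ∈ N, ∀ g, ρ g * s * ρ g⁻¹ ∈ N
  pair : ∀ s ∈ N, ∀ t ∈ N, s * t = t * s ∨ Opp K s t ∨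
    (s * t * s = 0 ∧ t * s * t = 0 ∧ s * t - t * s ∈ N)

variable {K} {ρ : Γ →* R} {N : Set R} {s t : R}

theorem Opp.symm (h : Opp K s t) : Opp K t s := by
  obtain ⟨c, h1, h2, h3⟩ := h
  exact ⟨c, h1, h3, h2⟩

theorem one_add_mul (hs : s * s = 0) (a b : K) : (1 + a • s) * (1 + b • s) = 1 + (a + b) • s := by
  simp only [ncr, ncs, hs, add_smul]; abel

theorem rho_inv {g : Γ} {a : R} (ha : a * a = 0) (h : ρ g = 1 + a) : ρ g⁻¹ = 1 - a := by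
  calc ρ g⁻¹ = ρ g⁻¹ * ((1 + a) * (1 - a)) := by simp only [ncr, ha]; abel
    _ = 1 - a := by rw [← h, ← mul_assoc, ← map_mul, inv_mul_cancel, map_one, one_mul]

theorem mem_Rg (hs : s * s = 0) {g : Γ} : g ∈ Rg K ρ s ↔ ∃ c : K, ρ g = 1 + c • s := by
  refine ⟨fun h => ?_, fun h => Subgroup.subset_closure h⟩
  induction h using Subgroup.closure_induction with
  | mem x hx => exact hx
  | one => exact ⟨0, by simp⟩
  | mul x y _ _ h1 h2 =>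
    obtain ⟨a, h1⟩ := h1
    obtain ⟨b, h2⟩ := h2
    exact ⟨a + b, by rw [map_mul, h1, h2, one_add_mul hs]⟩
  | inv x _ h1 =>
    obtain ⟨a, h1⟩ := h1
    exact ⟨-a, by rw [rho_inv (by simp only [ncs, hs]) h1, neg_smul, sub_eq_add_neg]⟩

theorem Rg_smul {c : K} (hc : c ≠ 0) : Rg K ρ (c • s) = Rg K ρ s := by
  unfold Rg
  congr 1
  ext g
  exact ⟨fun ⟨a, h⟩ => ⟨a * c, by rw [h, smul_smul]⟩,
    fun ⟨a, h⟩ => ⟨a * c⁻¹, by rw [h, smul_smul, mul_assoc, inv_mul_cancel₀ hc, mul_one]⟩⟩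

theorem cj_Rg (hs : s * s = 0) (g : Γ) : cj g (Rg K ρ s) = Rg K ρ (ρ g * s * ρ g⁻¹) := by
  have hs' : (ρ g * s * ρ g⁻¹) * (ρ g * s * ρ g⁻¹) = 0 := by
    rw [mul_assoc, ← mul_assoc (ρ g⁻¹), ← mul_assoc (ρ g⁻¹), ← map_mul, inv_mul_cancel, map_one,
      one_mul, mul_assoc, z2 hs, mul_zero]
  have e1 : ρ g * ρ g⁻¹ = 1 := by rw [← map_mul, mul_inv_cancel, map_one]
  have e2 : ∀ x, ρ g⁻¹ * (ρ g * x) = x := fun x => by
    rw [← mul_assoc, ← map_mul, inv_mul_cancel, map_one, one_mul]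
  have e3 : ρ g⁻¹ * ρ g = 1 := by rw [← map_mul, inv_mul_cancel, map_one]
  ext x
  rw [mem_cj, mem_Rg hs, mem_Rg hs']
  refine exists_congr fun c => ⟨fun h => ?_, fun h => ?_⟩
  · have : x = g * (g⁻¹ * x * g) * g⁻¹ := by group
    rw [this, map_mul, map_mul, h]
    simp only [ncr, ncs, e1]
  · rw [map_mul, map_mul, h]
    simp only [ncr, ncs, e2, e3]

theorem smul_inj (hs : s ≠ 0) {a b : K} (h : 1 + a • s = 1 + b • s) : a = b := by
  have := add_left_cancel h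
  rw [← sub_eq_zero, ← sub_smul, smul_eq_zero] at this
  exact sub_eq_zero.1 (this.resolve_right hs)

theorem exists_sl2 (hs : s * s = 0) (ht : t * t = 0) (h1 : s * t * s = s) (h2 : t * s * t = t)
    (hs0 : s ≠ 0) : ∃ φ : SLt K →* R, Function.Injective φ ∧ (∀ c, φ (xx c) = 1 + c • s) ∧
      (∀ c, φ (yy c) = 1 + c • t) := by
  have rules : s * s = 0 ∧ t * t = 0 ∧ s * (t * s) = s ∧
      t * (s * t) = t ∧ (∀ x, s * (s * x) = 0) ∧ (∀ x, t * (t * x) = 0) ∧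
      (∀ x, s * (t * (s * x)) = s * x) ∧ (∀ x, t * (s * (t * x)) = t * x) :=
    ⟨hs, ht, r3' h1, r3' h2, z2 hs, z2 ht, r3 h1, r3 h2⟩
  set val : SLt K → R := fun m => 1 - (s * t + t * s) + (m.1 0 0 • (s * t) +
    m.1 0 1 • s + m.1 1 0 • t + m.1 1 1 • (t * s)) with hval
  have hv : ∀ m m', val (m * m') = val m * val m' := by
    intro m m'
    simp only [hval, ent]
    simp only [ncr, ncs, rules]
    module
  have hv1 : val 1 = 1 := by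
    simp only [hval, ent, one_smul, zero_smul]; abel
  let ψ : SLt K →* R := ⟨⟨val, hv1⟩, hv⟩
  have ht0 : t ≠ 0 := fun e => hs0 (by rw [← h1, e]; simp)
  refine ⟨ψ, ?_, fun c => ?_, fun c => ?_⟩
  · rw [injective_iff_map_eq_one]
    intro m hm
    have e : val m = 1 := hm
    have e1 := congrArg (fun y => s * y * s) e
    have e2 := congrArg (fun y => t * y * t) e
    have e3 := congrArg (fun y => s * t * y * s) e
    simp only [hval, ncr, ncs, rules, add_zero, zero_add, sub_self] at e1 e2 e3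
    have c1 := (smul_eq_zero.1 e1).resolve_right hs0
    have c2 := (smul_eq_zero.1 e2).resolve_right ht0
    have c3 : m.1 0 0 = 1 := smul_inj hs0 (by rw [e3, one_smul])
    have hd := sl_det m
    rw [c1, c2, c3] at hd
    exact sl_ext c3 c2 c1 (by simpa using hd)
  · change val (xx c) = _
    simp only [hval, ent, one_smul, zero_smul]; abel
  · change val (yy c) = _
    simp only [hval, ent, one_smul, zero_smul]; abel

theorem ro_of_psl2 {A B : Subgroup Γ} (h : IsPSL2PairOver K A B) : RO A B := by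
  obtain ⟨φ, -, h2, rfl, rfl⟩ := h
  exact ro_sl2.map φ fun x _ e y _ => (Subgroup.mem_center_iff.1 (h2 e) y).symm

theorem psl2_subgroupOf {A B H : Subgroup Γ} (h : IsPSL2PairOver K A B) (hA : A ≤ H) (hB : B ≤ H) :
    IsPSL2PairOver K (A.subgroupOf H) (B.subgroupOf H) := by
  obtain ⟨φ, h1, h2, h3, h4⟩ := h
  have hm : ∀ x, φ x ∈ H := fun x => sup_le hA hB (h1.le ⟨x, rfl⟩)
  have key : ∀ X : Subgroup (SLt K), X.map (φ.codRestrict H hm) = (X.map φ).subgroupOf H := fun X =>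
    subgroupOf_eq_of_map (by rw [Subgroup.map_map]; rfl)
  refine ⟨φ.codRestrict H hm, ?_, by rwa [MonoidHom.ker_codRestrict], by rw [key, h3], by rw [key, h4]⟩
  rw [MonoidHom.range_eq_map, key, ← MonoidHom.range_eq_map, h1, Subgroup.subgroupOf_sup hA hB]

namespace LF

theorem ne_one (h : LF K ρ N) (hs : s ∈ N) {g : Γ} {c : K} (hc : c ≠ 0) (hg : ρ g = 1 + c • s) :
    g ≠ 1 := by
  rintro rfl
  rw [map_one] at hg
  exact hc (smul_inj (h.ne s hs) (by rw [← hg, zero_smul, add_zero]))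

theorem exists_of_ne_one (h : LF K ρ N) (hs : s ∈ N) {g : Γ} (hg : g ∈ Rg K ρ s) (h1 : g ≠ 1) :
    ∃ c : K, c ≠ 0 ∧ ρ g = 1 + c • s := by
  obtain ⟨c, e⟩ := (mem_Rg (h.sq s hs)).1 hg
  refine ⟨c, fun hc => h1 (h.inj ?_), e⟩
  rw [e, hc, zero_smul, add_zero, map_one]

theorem cm_iff' (h : LF K ρ N) (hs : s ∈ N) (ht : t ∈ N) :
    Cm (Rg K ρ s) (Rg K ρ t) ↔ s * t = t * s := by
  constructor
  · intro k
    obtain ⟨a, ha⟩ := h.ex s hs 1
    obtain ⟨b, hb⟩ := h.ex t ht 1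
    have := congrArg ρ (k a ((mem_Rg (h.sq s hs)).2 ⟨1, ha⟩) b ((mem_Rg (h.sq t ht)).2 ⟨1, hb⟩))
    rw [map_mul, map_mul, ha, hb, one_smul, one_smul] at this
    simp only [ncr] at this
    linear_combination (norm := abel) this
  · intro k a ha b hb
    obtain ⟨c, ha⟩ := (mem_Rg (h.sq s hs)).1 ha
    obtain ⟨d, hb⟩ := (mem_Rg (h.sq t ht)).1 hb
    apply h.inj
    rw [map_mul, map_mul, ha, hb]
    simp only [ncr, ncs, k, smul_add, smul_smul, mul_comm c d]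
    abel

theorem psl2 (h : LF K ρ N) (hs : s ∈ N) (ht : t ∈ N) (ho : Opp K s t) :
    IsPSL2PairOver K (Rg K ρ s) (Rg K ρ t) := by
  obtain ⟨c, hc, h1, h2⟩ := ho
  have ht' := h.smul t ht c⁻¹ (inv_ne_zero hc)
  rw [← Rg_smul (s := t) (inv_ne_zero hc)]
  obtain ⟨φ, hφ, hx, hy⟩ := exists_sl2 (K := K) (h.sq s hs) (h.sq _ ht')
    (by simp only [ncs, h1, smul_smul, inv_mul_cancel₀ hc, one_smul])
    (by simp only [ncs, h2, smul_smul, inv_mul_cancel₀ hc, mul_one]) (h.ne s hs)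
  generalize c⁻¹ • t = t at ht' hy
  have hinj : Function.Injective ρ.toHomUnits := fun a b e => h.inj (congrArg Units.val e)
  have hr : ∀ m, φ.toHomUnits m ∈ ρ.toHomUnits.range := by
    intro m
    have : (ρ.toHomUnits.range).comap φ.toHomUnits = ⊤ := eq_top_of_xy
      (fun c => by obtain ⟨g, e⟩ := h.ex s hs c; exact ⟨g, Units.ext (e.trans (hx c).symm)⟩)
      (fun c => by obtain ⟨g, e⟩ := h.ex t ht' c; exact ⟨g, Units.ext (e.trans (hy c).symm)⟩)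
    exact this.ge (Subgroup.mem_top m)
  let ψ : SLt K →* Γ := (MonoidHom.ofInjective hinj).symm.toMonoidHom.comp
    (φ.toHomUnits.codRestrict _ hr)
  have hψ : ∀ m, ρ (ψ m) = φ m := fun m =>
    congrArg Units.val (MonoidHom.apply_ofInjective_symm hinj ⟨_, hr m⟩)
  have e1 : (upperUnipotentSL2 K).map ψ = Rg K ρ s := by
    ext g
    rw [mem_Rg (h.sq s hs)]
    constructor
    · rintro ⟨m, hm, rfl⟩
      obtain ⟨c, rfl⟩ := mem_upper.1 hm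
      exact ⟨c, by rw [hψ, hx]⟩
    · rintro ⟨c, e⟩
      exact ⟨xx c, xx_mem c, h.inj (by rw [hψ, hx, e])⟩
  have e2 : (lowerUnipotentSL2 K).map ψ = Rg K ρ t := by
    ext g
    rw [mem_Rg (h.sq t ht')]
    constructor
    · rintro ⟨m, hm, rfl⟩
      obtain ⟨c, rfl⟩ := mem_lower.1 hm
      exact ⟨c, by rw [hψ, hy]⟩
    · rintro ⟨c, e⟩
      exact ⟨yy c, yy_mem c, h.inj (by rw [hψ, hy, e])⟩
  refine ⟨ψ, ?_, fun m hm => ?_, e1, e2⟩
  · rw [← e1, ← e2, ← Subgroup.map_sup, upper_sup_lower, MonoidHom.range_eq_map]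
  · have : m = 1 := hφ (by rw [← hψ, (MonoidHom.mem_ker).1 hm, map_one, map_one])
    rw [this]; exact one_mem _

theorem comm_val (h : LF K ρ N) (hs : s ∈ N) (ht : t ∈ N) (h1 : s * t * s = 0) (h2 : t * s * t = 0)
    {a b : Γ} {c d : K} (ha : ρ a = 1 + c • s) (hb : ρ b = 1 + d • t) :
    ρ (a * b * a⁻¹ * b⁻¹) = 1 + (c * d) • (s * t - t * s) := by
  have hs2 := h.sq s hs
  have ht2 := h.sq t ht
  rw [map_mul, map_mul, map_mul, rho_inv (by simp only [ncs, hs2]) ha,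
    rho_inv (by simp only [ncs, ht2]) hb, ha, hb]
  simp only [ncr, ncs, hs2, ht2, z3' h1, z3' h2, smul_add, smul_sub,
    smul_smul, mul_comm d c]
  abel

theorem closure_comm (h : LF K ρ N) (hs : s ∈ N) (ht : t ∈ N) (h1 : s * t * s = 0) (h2 : t * s * t = 0)
    {a : Γ} (ha : a ∈ Rg K ρ s) (ha1 : a ≠ 1) :
    Subgroup.closure ((fun b : Γ => a * b * a⁻¹ * b⁻¹) '' (Rg K ρ t : Set Γ)) =
      Rg K ρ (s * t - t * s) := by
  obtain ⟨c, hc, ha⟩ := h.exists_of_ne_one hs ha ha1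
  conv_rhs => rw [Rg]
  congr 1
  ext x
  constructor
  · rintro ⟨b, hb, rfl⟩
    obtain ⟨d, hb⟩ := (mem_Rg (h.sq t ht)).1 hb
    exact ⟨_, h.comm_val hs ht h1 h2 ha hb⟩
  · rintro ⟨e, hx⟩
    obtain ⟨b, hb⟩ := h.ex t ht (c⁻¹ * e)
    refine ⟨b, (mem_Rg (h.sq t ht)).2 ⟨_, hb⟩, h.inj ?_⟩
    rw [h.comm_val hs ht h1 h2 ha hb, hx, mul_inv_cancel_left₀ hc]

theorem commutator_eq (h : LF K ρ N) (hs : s ∈ N) (ht : t ∈ N) (h1 : s * t * s = 0)
    (h2 : t * s * t = 0) (h3 : s * t - t * s ∈ N) :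
    ⁅Rg K ρ s, Rg K ρ t⁆ = Rg K ρ (s * t - t * s) := by
  apply le_antisymm
  · rw [Subgroup.commutator_le]
    intro a ha b hb
    obtain ⟨c, ha⟩ := (mem_Rg (h.sq s hs)).1 ha
    obtain ⟨d, hb⟩ := (mem_Rg (h.sq t ht)).1 hb
    exact (mem_Rg (h.sq _ h3)).2 ⟨_, h.comm_val hs ht h1 h2 ha hb⟩
  · obtain ⟨a, ha⟩ := h.ex s hs 1
    have ha' := (mem_Rg (h.sq s hs)).2 ⟨_, ha⟩
    rw [← h.closure_comm hs ht h1 h2 ha' (h.ne_one hs one_ne_zero ha), Subgroup.closure_le]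
    rintro _ ⟨b, hb, rfl⟩
    exact comm_mem ha' hb

theorem cc (h : LF K ρ N) (hs : s ∈ N) (ht : t ∈ N) (h1 : s * t * s = 0)
    (h2 : t * s * t = 0) (h3 : s * t - t * s ∈ N) : CC (Rg K ρ '' N) (Rg K ρ s) (Rg K ρ t) := by
  have hs2 := h.sq s hs
  have ht2 := h.sq t ht
  have h3' : t * s - s * t ∈ N := by
    have := h.smul _ h3 (-1) (by simp)
    rwa [neg_one_smul, neg_sub] at this
  have e := h.commutator_eq hs ht h1 h2 h3
  refine ⟨⟨_, h3, e.symm⟩, ?_, fun a ha ha1 => ?_, fun b hb hb1 => ?_⟩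
  · rw [e]
    refine Cm.sup_right ((h.cm_iff' h3 hs).2 ?_) ((h.cm_iff' h3 ht).2 ?_)
    · simp only [ncr, hs2, z2 hs2, z3' h1]
    · simp only [ncr, ht2, z2 ht2, z3' h2]
  · rw [e, h.closure_comm hs ht h1 h2 ha ha1]
  · rw [closure_comm_swap, h.closure_comm ht hs h2 h1 hb hb1, Subgroup.commutator_comm,
      h.commutator_eq ht hs h2 h1 h3']

theorem rs (h : LF K ρ N) : RS (Rg K ρ '' N) := by
  refine ⟨?_, ?_, ?_, ?_⟩
  · rintro _ ⟨s, hs, rfl⟩; exact (h.cm_iff' hs hs).2 rfl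
  · rintro _ ⟨s, hs, rfl⟩ e
    obtain ⟨a, ha⟩ := h.ex s hs 1
    exact h.ne_one hs one_ne_zero ha (e.le ((mem_Rg (h.sq s hs)).2 ⟨_, ha⟩))
  · rintro _ ⟨s, hs, rfl⟩ g
    exact ⟨_, h.conj s hs g, (cj_Rg (h.sq s hs) g).symm⟩
  · rintro _ ⟨s, hs, rfl⟩ _ ⟨t, ht, rfl⟩
    rcases h.pair s hs t ht with k | k | k
    · exact Or.inl ((h.cm_iff' hs ht).2 k)
    · exact Or.inr (Or.inl (ro_of_psl2 (h.psl2 hs ht k)))
    · exact Or.inr (Or.inr (h.cc hs ht k.1 k.2.1 k.2.2))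

theorem rsk (h : LF K ρ N) : RSK ⊤ (Rg K ρ '' N) :=
  ⟨fun _ _ => le_top, h.rs.cm, h.rs.ne_bot, fun A hA g _ => h.rs.cj_mem A hA g, h.rs.pair⟩

theorem psl2_of_ro (h : LF K ρ N) {A B : Subgroup Γ} (hA : A ∈ Rg K ρ '' N) (hB : B ∈ Rg K ρ '' N)
    (hr : RO A B) : IsPSL2PairOver K A B := by
  obtain ⟨s, hs, rfl⟩ := hA
  obtain ⟨t, ht, rfl⟩ := hB
  rcases h.pair s hs t ht with k | k | k
  · exact absurd ((h.cm_iff' hs ht).2 k) hr.not_cm
  · exact h.psl2 hs ht k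
  · exact absurd hr (h.rs.cc_not_ro ⟨s, hs, rfl⟩ (h.cc hs ht k.1 k.2.1 k.2.2))

theorem degenerate (h : LF K ρ N) (hp : ∀ s ∈ N, ∀ t ∈ N, s * t = t * s ∨ Opp K s t) :
    IsDegenerateRootSet (Rg K ρ '' N) := by
  rintro _ ⟨s, hs, rfl⟩ _ ⟨t, ht, rfl⟩ k
  rcases hp s hs t ht with l | l
  · exact h.rs.cc_not_cm k ((h.cm_iff' hs ht).2 l)
  · exact h.rs.cc_not_ro ⟨s, hs, rfl⟩ k (ro_of_psl2 (h.psl2 hs ht l))

theorem connected (h : LF K ρ N) (hni : ∀ s ∈ N, ∃ t ∈ N, Opp K s t)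
    (hc : ∀ s ∈ N, ∀ t ∈ N, s * t = t * s → ∃ u ∈ N, s * u ≠ u * s ∧ t * u ≠ u * t) :
    IsConnectedFamily (FAdj (Rg K ρ '' N)) (Rg K ρ '' N) := by
  have hni' : ∀ A ∈ Rg K ρ '' N, NI (Rg K ρ '' N) A := by
    rintro _ ⟨s, hs, rfl⟩
    obtain ⟨t, ht, k⟩ := hni s hs
    exact ⟨_, ⟨t, ht, rfl⟩, ro_of_psl2 (h.psl2 hs ht k)⟩
  have key : ∀ s ∈ N, ∀ t ∈ N, s * t ≠ t * s → FR (Rg K ρ '' N) (Rg K ρ s) (Rg K ρ t) := by
    intro s hs t ht k
    by_contra l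
    exact k ((h.cm_iff' hs ht).1 (h.rs.cm_of_not_fr hni' ⟨s, hs, rfl⟩ ⟨t, ht, rfl⟩ l))
  rintro _ ⟨s, hs, rfl⟩ _ ⟨t, ht, rfl⟩
  by_cases k : s * t = t * s
  · obtain ⟨u, hu, k1, k2⟩ := hc s hs t ht k
    exact (key s hs u hu k1).trans (FR.symm (key t ht u hu k2))
  · exact key s hs t ht k

theorem kroot (h : LF K ρ N) (hg : (⨆ A ∈ Rg K ρ '' N, A) = ⊤) : IsKRootSubgroupSet K (Rg K ρ '' N) :=
  ⟨h.rs.isRootSubgroupSet hg, fun _ hA _ hB hr => h.psl2_of_ro hA hB hr⟩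

theorem kroot_sub (h : LF K ρ N) :
    IsKRootSubgroupSet K (sub (⨆ A ∈ Rg K ρ '' N, A) (Rg K ρ '' N)) := by
  refine ⟨h.rsk.isRootSubgroupSet, ?_⟩
  rintro _ ⟨A, hA, rfl⟩ _ ⟨B, hB, rfl⟩ hr
  have h1 : A ≤ ⨆ A ∈ Rg K ρ '' N, A := le_iSup₂_of_le A hA le_rfl
  have h2 : B ≤ ⨆ A ∈ Rg K ρ '' N, A := le_iSup₂_of_le B hB le_rfl
  exact psl2_subgroupOf (h.psl2_of_ro hA hB ((ro_subgroupOf_iff h1 h2).1 hr)) h1 h2

end LF

theorem class_of_connectedFamily {S : Set (Subgroup Γ)} (hne : S.Nonempty)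
    (hc : IsConnectedFamily (FAdj S) S) : IsConjClassOfSubgroups S :=
  ⟨hne, fun A hA B hB => FR.exists_conj (hc A hA B hB)⟩

theorem RSK.connected_sub {H : Subgroup Γ} {S : Set (Subgroup Γ)} (h : RSK H S)
    (hc : IsConnectedFamily (FAdj S) S) : IsConnectedFamily (FAdj (sub H S)) (sub H S) := by
  rintro _ ⟨A, hA, rfl⟩ _ ⟨B, hB, rfl⟩
  exact h.sub_fr (hc A hA B hB)

theorem RSK.degenerate_sub {H : Subgroup Γ} {S : Set (Subgroup Γ)} (h : RSK H S)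
    (hp : ∀ A ∈ S, ∀ B ∈ S, Cm A B ∨ RO A B) : IsDegenerateRootSet (sub H S) := by
  rintro _ ⟨A, hA, rfl⟩ _ ⟨B, hB, rfl⟩ k
  rcases hp A hA B hB with l | l
  · exact h.rs.cc_not_cm k (cm_subgroupOf l)
  · exact h.rs.cc_not_ro ⟨A, hA, rfl⟩ k ((ro_subgroupOf_iff (h.le A hA) (h.le B hB)).2 l)

end H89
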