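import Mathlib
import Cfsg.Agent.Base
import Cfsg.Agent.Lib.Root.SL2
import Cfsg.Agent.S2426

/-! The subgroup `⟨a, b(a)⟩` of a special rank one group (helper89). -/

set_option autoImplicit false

namespace H89
open Cfsg

variable {X : Type*} [Group X] {A B : Subgroup X} {p : ℕ} [hp : Fact p.Prime]

/-- power with exponent in `ZMod p` -/
def pw (g : X) (t : ZMod p) : X := g ^ t.val

theorem pw_add {g : X} (h : g ^ p = 1) (t u : ZMod p) : pw g (t + u) = pw g t * pw g u := by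
  rw [pw, pw, pw, ← pow_add, ZMod.val_add, ← pow_eq_pow_mod _ h]

theorem pw_mul {g : X} (h : g ^ p = 1) (t u : ZMod p) : pw g (t * u) = pw g t ^ u.val := by
  rw [pw, pw, ← pow_mul, ZMod.val_mul, ← pow_eq_pow_mod _ h]

theorem pw_one (g : X) : pw g (1 : ZMod p) = g := by rw [pw, ZMod.val_one, pow_one]

theorem pw_neg {g : X} (h : g ^ p = 1) (t : ZMod p) : pw g (-t) = (pw g t)⁻¹ := by
  apply eq_inv_of_mul_eq_one_left
  rw [← pw_add h, neg_add_cancel, pw, ZMod.val_zero, pow_zero]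

theorem SP.pw_rel (h : SP A B) (hA : Cm A A) (hAp : ∀ x ∈ A, x ^ p = 1) (hBp : ∀ x ∈ B, x ^ p = 1)
    {a b : X} (ha : a ∈ A) (ha1 : a ≠ 1) (hb : b ∈ B) (e : cj b A = cj a B) {t : ZMod p}
    (ht : t ≠ 0) (u : ZMod p) : pw a t * pw b (-t⁻¹) * pw a t * pw a u *
      (pw a t * pw b (-t⁻¹) * pw a t)⁻¹ = pw b (-(t⁻¹ ^ 2 * u)) := by
  have ho : orderOf a = p := orderOf_eq_prime (hAp a ha) ha1
  have hv : 1 ≤ t.val := Nat.pos_of_ne_zero fun e => ht ((ZMod.val_eq_zero t).1 e)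
  have hne : ∀ j, 1 ≤ j → j ≤ t.val → a ^ j ≠ 1 := fun j h1 h2 =>
    pow_ne_one_of_lt_orderOf (by omega) (by rw [ho]; exact h2.trans_lt (ZMod.val_lt t))
  have hc : pw a t ∈ A := pow_mem ha _
  have hc1 : pw a t ≠ 1 := hne _ hv le_rfl
  have h1 := h.pt_pow hA ha hv hne
  rw [h.ro.pt_eq ha ha1 hb e] at h1
  have hB := (h.ro.pt_spec hc hc1).1
  have h2 : pt A B (pw a t) = pw b t⁻¹ := by
    rw [← h1]
    change _ = pw (pt A B (pw a t)) t ^ _
    rw [← pw_mul (hBp _ hB), mul_inv_cancel₀ ht, pw_one]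
  have h3 := h.nn_conj hc hc1
  rw [nn, h2, ← pw_neg (hBp b hb)] at h3
  have h4 : pw a u = pw a t ^ (t⁻¹ * u).val := by
    rw [← pw_mul (hAp a ha), ← mul_assoc, mul_inv_cancel₀ ht, one_mul]
  rw [h4, ← conj_pow, h3, ← pw_mul (hBp b hb)]
  congr 1; ring

theorem center_sl2 {F : Type*} [Field F] {z : SLt F} (hz : z ∈ Subgroup.center (SLt F)) :
    z = 1 ∨ z = mk2 (-1) 0 0 (-1) (by ring) := by
  have h1 := Subgroup.mem_center_iff.1 hz (xx 1)
  have h2 := Subgroup.mem_center_iff.1 hz (yy 1)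
  have e1 := congrArg (fun g : SLt F => g.1 0 0) h1
  have e2 := congrArg (fun g : SLt F => g.1 0 0) h2
  have e3 := congrArg (fun g : SLt F => g.1 0 1) h1
  simp only [ent] at e1 e2 e3
  have a1 : z.1 1 0 = 0 := by linear_combination e1
  have a2 : z.1 0 1 = 0 := by linear_combination -e2
  have a3 : z.1 1 1 = z.1 0 0 := by linear_combination e3
  have hd := sl_det z
  rw [a1, a2, a3] at hd
  rcases mul_self_eq_one_iff.1 (show z.1 0 0 * z.1 0 0 = 1 by linear_combination hd) with e | e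
  · exact Or.inl (sl_ext e a2 a1 (a3.trans e))
  · exact Or.inr (sl_ext e a2 a1 (a3.trans e))

theorem lift_pres {α Y : Type*} [Group Y] {rels : Set (FreeGroup α)}
    (E : PresentedGroup rels ≃* Y) (f : α → X) (h : ∀ r ∈ rels, FreeGroup.lift f r = 1) :
    ∃ ψ : Y →* X, ∀ q, ψ (E (PresentedGroup.of q)) = f q :=
  ⟨(PresentedGroup.toGroup h).comp E.symm.toMonoidHom, fun q => by simp⟩

theorem SP.min_sl2 (h : SP A B) (hA : Cm A A) (hB : Cm B B) (hAp : ∀ x ∈ A, x ^ p = 1)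
    {a b : X} (ha : a ∈ A) (ha1 : a ≠ 1) (hb : b ∈ B) (hb1 : b ≠ 1) (e : cj b A = cj a B) :
    Nonempty (↥(Subgroup.closure ({a, b} : Set X)) ≃* SLt (ZMod p)) ∨
    (Subgroup.center (SLt (ZMod p)) ≠ ⊥ ∧ Nonempty (↥(Subgroup.closure ({a, b} : Set X)) ≃*
      Matrix.ProjectiveSpecialLinearGroup (Fin 2) (ZMod p))) := by
  have hBp : ∀ x ∈ B, x ^ p = 1 := by
    obtain ⟨g, -, rfl⟩ := h.ro.exists_cj_left_eq_right
    intro x hx
    obtain ⟨y, hy, rfl⟩ := exists_of_mem_cj hx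
    rw [conj_pow, hAp y hy]; simp
  obtain ⟨E, hx, hy⟩ := Cfsg.Agent.S2426.result (K := ZMod p)
  let f : Bool × ZMod p → X := fun q => pw (if q.1 then a else b) q.2
  obtain ⟨ψ, hψ⟩ := lift_pres E f (by
    rintro r (⟨c, t, u, rfl⟩ | ⟨c, t, u, ht, rfl⟩)
    · simp only [map_mul, map_inv, FreeGroup.lift_apply_of, mul_inv_eq_one]
      cases c
      · exact (pw_add (hBp b hb) t u).symm
      · exact (pw_add (hAp a ha) t u).symm
    · simp only [map_mul, map_inv, FreeGroup.lift_apply_of, mul_inv_eq_one]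
      cases c
      · exact h.symm.pw_rel hB hBp hAp hb hb1 ha e.symm ht u
      · exact h.pw_rel hA hAp hBp ha ha1 hb e ht u)
  have ψx : ∀ t, ψ (xx t) = pw a t := fun t => by
    have : xx t = E (PresentedGroup.of (true, t)) := Subtype.ext (hx t).symm
    rw [this, hψ]; rfl
  have ψy : ∀ t, ψ (yy t) = pw b t := fun t => by
    have : yy t = E (PresentedGroup.of (false, t)) := Subtype.ext (hy t).symm
    rw [this, hψ]; rfl
  have hr : Subgroup.closure ({a, b} : Set X) = ψ.range := by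
    apply le_antisymm
    · refine (Subgroup.closure_le _).2 ?_
      rintro _ (rfl | rfl)
      · exact ⟨xx 1, by rw [ψx, pw_one]⟩
      · exact ⟨yy 1, by rw [ψy, pw_one]⟩
    · have := eq_top_of_xy (H := (Subgroup.closure ({a, b} : Set X)).comap ψ)
        (fun t => by
          rw [Subgroup.mem_comap, ψx]; exact pow_mem (Subgroup.subset_closure (by simp)) _)
        (fun t => by
          rw [Subgroup.mem_comap, ψy]; exact pow_mem (Subgroup.subset_closure (by simp)) _)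
      rintro _ ⟨m, rfl⟩
      exact Subgroup.mem_comap.1 (this ▸ Subgroup.mem_top m)
  have hk : ψ.ker ≤ Subgroup.center _ := by
    refine (ro_sl2.dichotomy_top upper_sup_lower ψ.ker).resolve_left fun ht => hb1 ?_
    have : ψ.ker ⊔ upperUnipotentSL2 (ZMod p) ≤ A.comap ψ := sup_le
      (fun m hm => by rw [Subgroup.mem_comap, MonoidHom.mem_ker.1 hm]; exact one_mem _)
      (fun m hm => by
        obtain ⟨c, rfl⟩ := mem_upper.1 hm
        rw [Subgroup.mem_comap, ψx]; exact pow_mem ha _)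
    have h2 := this (ht ▸ Subgroup.mem_top (yy 1))
    rw [Subgroup.mem_comap, ψy, pw_one] at h2
    exact h.ro.eq_one_of_mem h2 hb
  by_cases h0 : ψ.ker = ⊥
  · exact Or.inl ⟨(MulEquiv.subgroupCongr hr).trans
      (MonoidHom.ofInjective ((MonoidHom.ker_eq_bot_iff ψ).1 h0)).symm⟩
  · have : Subgroup.center _ = ψ.ker := by
      refine le_antisymm (fun z hz => ?_) hk
      obtain ⟨w, hw, hw1⟩ := exists_ne_one h0
      rcases center_sl2 hz with e1 | e1
      · rw [e1]; exact one_mem _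
      · rw [e1, ← (center_sl2 (hk hw)).resolve_left hw1]; exact hw
    exact Or.inr ⟨this ▸ h0, ⟨(MulEquiv.subgroupCongr hr).trans ((QuotientGroup.quotientMulEquivOfEq this).trans
      (QuotientGroup.quotientKerEquivRange ψ)).symm⟩⟩

end H89
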