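import Cfsg.Agent.Lib.Root.Transv

/-! Siegel transvection groups of the hyperbolic quadratic space as root subgroups. -/

set_option autoImplicit false

namespace H89.Sg

open Cfsg Matrix H89

variable {F : Type*} [Field F] {n : ℕ}

local notation "Q" => quadFormPlus n F
local notation "V" => Fin n ⊕ Fin n → F
local notation "M" => Matrix (Fin n ⊕ Fin n) (Fin n ⊕ Fin n) F

/-- the polar form -/
def B (u v : V) : F := u ⬝ᵥ (v ∘ Sum.swap)

theorem B_eq (u v : V) : B u v = ∑ i, (u (.inl i) * v (.inr i) + u (.inr i) * v (.inl i)) := by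
  simp [B, dotProduct, Fintype.sum_sum_type, Finset.sum_add_distrib]

theorem B_comm (u v : V) : B u v = B v u := by
  rw [B_eq, B_eq]; exact Finset.sum_congr rfl fun i _ => by ring

theorem B_add_left (u v w : V) : B (u + v) w = B u w + B v w := add_dotProduct _ _ _
theorem B_sub_left (u v w : V) : B (u - v) w = B u w - B v w := sub_dotProduct _ _ _
theorem B_smul_left (c : F) (v w : V) : B (c • v) w = c * B v w := smul_dotProduct _ _ _
theorem B_add_right (u v w : V) : B w (u + v) = B w u + B w v := by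
  rw [B_comm, B_add_left, B_comm u, B_comm v]
theorem B_sub_right (u v w : V) : B w (u - v) = B w u - B w v := by
  rw [B_comm, B_sub_left, B_comm u, B_comm v]
theorem B_smul_right (c : F) (v w : V) : B w (c • v) = c * B w v := by
  rw [B_comm, B_smul_left, B_comm v]

theorem Q_add (v w : V) : Q (v + w) = Q v + Q w + B v w := by
  simp only [quadFormPlus, B_eq, ← Finset.sum_add_distrib, Pi.add_apply]
  exact Finset.sum_congr rfl fun i _ => by ring

theorem Q_smul (c : F) (v : V) : Q (c • v) = c * c * Q v := by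
  simp only [quadFormPlus, Finset.mul_sum, Pi.smul_apply, smul_eq_mul]
  exact Finset.sum_congr rfl fun i _ => by ring

theorem B_self {v : V} (h : Q v = 0) : B v v = 0 := by
  have : B v v = 2 * Q v := by
    simp only [quadFormPlus, B_eq, Finset.mul_sum]
    exact Finset.sum_congr rfl fun i _ => by ring
  rw [this, h, mul_zero]

theorem B_single (v : V) (a : Fin n ⊕ Fin n) : B v (Pi.single a 1) = v a.swap := by
  rw [B_comm, B, single_dotProduct, one_mul]; rfl

theorem eq_of_B {u v : V} (h : ∀ w, B u w = B v w) : u = v := by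
  funext a
  simpa [B_single] using h (Pi.single a.swap 1)

theorem Q_comb {p r : V} (hp : Q p = 0) (hr : Q r = 0) (h : B p r = 0) (a b : F) :
    Q (a • p + b • r) = 0 := by
  rw [Q_add, Q_smul, Q_smul, B_smul_left, B_smul_right, hp, hr, h]; ring

theorem mext {A A' : M} (h : ∀ v, A *ᵥ v = A' *ᵥ v) : A = A' :=
  Matrix.toLin'.injective (LinearMap.ext h)

/-- the Siegel element -/
def S (p r : V) : M := vecMulVec p (r ∘ Sum.swap) - vecMulVec r (p ∘ Sum.swap)

theorem S_mulVec (p r v : V) : S p r *ᵥ v = B v r • p - B v p • r := by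
  rw [S, sub_mulVec, vv_mulVec, vv_mulVec, dotProduct_comm, dotProduct_comm _ v]; rfl

/-- a singular line with a basis -/
structure SL (p r : V) : Prop where
  li : LinearIndependent F ![p, r]
  p0 : Q p = 0
  r0 : Q r = 0
  pr : B p r = 0

theorem SL.rp {p r : V} (h : SL p r) : B r p = 0 := by rw [B_comm, h.pr]

/-- the Siegel family -/
def N (n : ℕ) (F : Type*) [Field F] : Set (Matrix (Fin n ⊕ Fin n) (Fin n ⊕ Fin n) F) :=
  {s | ∃ p r, SL p r ∧ s = S p r}

/-- the inclusion of the isometry group -/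
def oc (n : ℕ) (F : Type*) [Field F] :
    isometryGroup F (quadFormPlus n F) →* Matrix (Fin n ⊕ Fin n) (Fin n ⊕ Fin n) F :=
  ⟨⟨fun g => g.1.1, rfl⟩, fun _ _ => rfl⟩

theorem Q_oc (g : isometryGroup F Q) (v : V) : Q (oc n F g *ᵥ v) = Q v := g.2 v v

theorem B_oc (g : isometryGroup F Q) (v w : V) : B (oc n F g *ᵥ v) (oc n F g *ᵥ w) = B v w := by
  have := Q_oc g (v + w)
  rw [mulVec_add, Q_add, Q_add, Q_oc, Q_oc] at this
  exact add_left_cancel this

theorem oc_inv (g : isometryGroup F Q) (v : V) : oc n F g *ᵥ oc n F g⁻¹ *ᵥ v = v := by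
  rw [mulVec_mulVec, ← map_mul, mul_inv_cancel, map_one, one_mulVec]

theorem exists_B_ne {p : V} (hp : p ≠ 0) : ∃ x, B x p = 1 := by
  obtain ⟨a, ha⟩ := Function.ne_iff.1 hp
  refine ⟨(p a)⁻¹ • Pi.single a.swap 1, ?_⟩
  rw [B_smul_left, B_comm, B_single, Sum.swap_swap, inv_mul_cancel₀ ha]

theorem li_symm {p r : V} (h : LinearIndependent F ![p, r]) : LinearIndependent F ![r, p] :=
  LinearIndependent.pair_symm_iff.1 h

theorem exists_dual₁ {p r : V} (h : LinearIndependent F ![p, r]) : ∃ x, B x p = 1 ∧ B x r = 0 := by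
  rw [LinearIndependent.pair_iff] at h
  obtain ⟨y, hy⟩ := exists_B_ne (p := r) fun e => by simpa using (h 0 1 (by simp [e])).2
  obtain ⟨x, hx⟩ := exists_B_ne (p := p - B y p • r) fun e => by
    simpa using (h 1 (-B y p) (by rw [one_smul, neg_smul, ← sub_eq_add_neg, e])).1
  rw [B_sub_right, B_smul_right] at hx
  refine ⟨x - B x r • y, ?_, ?_⟩
  · rw [B_sub_left, B_smul_left, ← hx]; ring
  · rw [B_sub_left, B_smul_left, hy]; ring

theorem li_of_dual {p r x y : V} (h1 : B x p = 1) (h2 : B x r = 0) (h3 : B y p = 0) (h4 : B y r = 1) :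
    LinearIndependent F ![x, y] := by
  rw [LinearIndependent.pair_iff]
  intro a b e
  have e1 := congrArg (B · p) e
  have e2 := congrArg (B · r) e
  simp only [B_add_left, B_smul_left, h1, h2, h3, h4] at e1 e2
  simpa [B] using And.intro e1 e2

theorem S_eq_zero {p r : V} (h : ¬ LinearIndependent F ![p, r]) : S p r = 0 := by
  rw [LinearIndependent.pair_iff] at h
  push Not at h
  obtain ⟨a, b, e, k⟩ := h
  refine mext fun v => ?_
  have e1 := congrArg (B v) e
  rw [B_add_right, B_smul_right, B_smul_right, show B v (0 : V) = 0 by simp [B]] at e1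
  rw [S_mulVec, zero_mulVec]
  by_cases ha : a = 0
  · have hb := k ha
    refine (smul_eq_zero.1 (?_ : b • (B v r • p - B v p • r) = 0)).resolve_left hb
    linear_combination (norm := module) e1 • p - B v p • e
  · refine (smul_eq_zero.1 (?_ : a • (B v r • p - B v p • r) = 0)).resolve_left ha
    linear_combination (norm := module) B v r • e - e1 • r

theorem S_sq {p r : V} (h : SL p r) : S p r * S p r = 0 := mext fun v => by
  simp only [← mulVec_mulVec, S_mulVec, B_sub_left, B_smul_left, h.pr, h.rp, B_self h.p0,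
    B_self h.r0, zero_mulVec]
  module

theorem S_mul3 {p r : V} (x y : V) :
    S p r * S x y * S p r = (B x r * B y p - B x p * B y r) • S p r := mext fun v => by
  simp only [← mulVec_mulVec, S_mulVec, B_sub_left, B_smul_left, smul_mulVec, B_comm p x,
    B_comm p y, B_comm r x, B_comm r y]
  module

theorem S_comm (p r x y : V) : S p r * S x y - S x y * S p r =
    S (B x r • p - B x p • r) y + S x (B y r • p - B y p • r) := mext fun v => by
  simp only [← mulVec_mulVec, S_mulVec, B_sub_left, B_smul_left, sub_mulVec, add_mulVec, B_comm p x,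
    B_comm p y, B_comm r x, B_comm r y, B_sub_right, B_smul_right]
  module

theorem opp {p r x y : V} (h : B x r * B y p - B x p * B y r ≠ 0) : Opp F (S p r) (S x y) :=
  ⟨_, h, S_mul3 x y, by
    rw [S_mul3, B_comm p y, B_comm r x, B_comm p x, B_comm r y, mul_comm (B y p)]⟩

theorem lf : LF F (oc n F) (N n F) where
  inj := fun _ _ e => Subtype.ext (Units.ext e)
  sq := by rintro _ ⟨p, r, h, rfl⟩; exact S_sq h
  ne := by
    rintro _ ⟨p, r, h, rfl⟩ e
    obtain ⟨x, h1, h2⟩ := exists_dual₁ h.li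
    have := S_mulVec p r x
    rw [e, h1, h2, zero_mulVec, zero_smul, one_smul, zero_sub, eq_comm, neg_eq_zero] at this
    exact h.li.ne_zero 1 this
  ex := by
    rintro _ ⟨p, r, h, rfl⟩ c
    have k : ∀ v, Q ((1 + c • S p r) *ᵥ v) = Q v := fun v => by
      rw [add_mulVec, one_mulVec, smul_mulVec, S_mulVec, Q_add, Q_smul, sub_eq_add_neg, ← neg_smul,
        Q_comb h.p0 h.r0 h.pr, B_smul_right, B_add_right, B_smul_right, B_smul_right]
      ring
    have k1 : (1 + c • S p r) * (1 + (-c) • S p r) = 1 := by rw [one_add_mul (S_sq h)]; simp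
    have k2 : (1 + (-c) • S p r) * (1 + c • S p r) = 1 := by rw [one_add_mul (S_sq h)]; simp
    let u : GL (Fin n ⊕ Fin n) F := ⟨_, _, k1, k2⟩
    have hu : u ∈ isometryGroup F Q := fun v _ => k v
    exact ⟨⟨u, hu⟩, rfl⟩
  smul := by
    rintro _ ⟨p, r, h, rfl⟩ c hc
    refine ⟨c • p, r, ⟨?_, by rw [Q_smul, h.p0, mul_zero], h.r0, by rw [B_smul_left, h.pr, mul_zero]⟩,
      mext fun v => ?_⟩
    · have := h.li
      rw [LinearIndependent.pair_iff] at this ⊢
      intro a b e
      rw [smul_smul] at e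
      exact ⟨(mul_eq_zero.1 (this _ _ e).1).resolve_right hc, (this _ _ e).2⟩
    · simp only [smul_mulVec, S_mulVec, B_smul_right]
      module
  conj := by
    rintro _ ⟨p, r, h, rfl⟩ g
    refine ⟨oc n F g *ᵥ p, oc n F g *ᵥ r, ⟨?_, by rw [Q_oc, h.p0], by rw [Q_oc, h.r0],
      by rw [B_oc, h.pr]⟩, mext fun v => ?_⟩
    · have := h.li
      rw [LinearIndependent.pair_iff] at this ⊢
      intro a b e
      have e' := congrArg (oc n F g⁻¹ *ᵥ ·) e
      have k := oc_inv g⁻¹
      rw [inv_inv] at k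
      simp only [mulVec_add, mulVec_smul, k, mulVec_zero] at e'
      exact this _ _ e'
    · rw [← mulVec_mulVec, ← mulVec_mulVec, S_mulVec, S_mulVec, mulVec_sub, mulVec_smul, mulVec_smul,
        ← B_oc g _ r, ← B_oc g _ p, oc_inv]
  pair := by
    rintro _ ⟨p, r, h, rfl⟩ _ ⟨x, y, h', rfl⟩
    by_cases k : B x r * B y p - B x p * B y r = 0
    swap
    · exact Or.inr (Or.inl (opp k))
    have hz : ∃ a b α β : F, B x r • p - B x p • r = α • (a • p + b • r) ∧
        B y r • p - B y p • r = β • (a • p + b • r) ∧ B (a • p + b • r) x = 0 ∧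
        B (a • p + b • r) y = 0 := by
      simp only [B_add_left, B_smul_left, B_comm p x, B_comm p y, B_comm r x, B_comm r y]
      by_cases h1 : B x p = 0
      · by_cases h2 : B x r = 0
        · exact ⟨B y r, -B y p, 0, 1, by rw [h1, h2]; module, by module, by rw [h1, h2]; ring, by ring⟩
        · refine ⟨B x r, -B x p, 1, B y r / B x r, by module, ?_, by ring, by linear_combination k⟩
          match_scalars
          · field_simp
          · field_simp; linear_combination -k
      · refine ⟨B x r, -B x p, 1, B y p / B x p, by module, ?_, by ring, by linear_combination k⟩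
        match_scalars
        · field_simp; linear_combination -k
        · field_simp
    obtain ⟨a, b, α, β, e1, e2, e3, e4⟩ := hz
    have e : S p r * S x y - S x y * S p r = S (a • p + b • r) ((-β) • x + α • y) := by
      rw [S_comm, e1, e2]
      refine mext fun v => ?_
      generalize a • p + b • r = z
      simp only [add_mulVec, S_mulVec, B_smul_right, B_add_right]
      module
    by_cases l : LinearIndependent F ![a • p + b • r, (-β) • x + α • y]
    · refine Or.inr (Or.inr ⟨by rw [S_mul3, k, zero_smul], ?_, _, _, ⟨l, Q_comb h.p0 h.r0 h.pr _ _,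
        Q_comb h'.p0 h'.r0 h'.pr _ _, ?_⟩, e⟩)
      · rw [S_mul3, B_comm p y, B_comm r x, B_comm p x, B_comm r y, mul_comm (B y p), k, zero_smul]
      · rw [B_add_right, B_smul_right, B_smul_right, e3, e4]; ring
    · exact Or.inl (sub_eq_zero.1 (e.trans (S_eq_zero l)))

theorem ni : ∀ s ∈ N n F, ∃ t ∈ N n F, Opp F s t := by
  rintro _ ⟨p, r, h, rfl⟩
  obtain ⟨x, h1, h2⟩ := exists_dual₁ h.li
  obtain ⟨y, h4, h3⟩ := exists_dual₁ (li_symm h.li)
  let x' := x + (-Q x) • p
  let y' := y + ((-B y x') • p + (-Q y) • r)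
  have k1 : B x' p = 1 := by simp only [x', B_add_left, B_smul_left, h1, B_self h.p0]; ring
  have k2 : B x' r = 0 := by simp only [x', B_add_left, B_smul_left, h2, h.pr]; ring
  have k3 : B y' p = 0 := by simp only [y', B_add_left, B_smul_left, h3, B_self h.p0, h.rp]; ring
  have k4 : B y' r = 1 := by simp only [y', B_add_left, B_smul_left, h4, B_self h.r0, h.pr]; ring
  refine ⟨_, ⟨x', y', ⟨li_of_dual k1 k2 k3 k4, ?_, ?_, ?_⟩, rfl⟩, opp (by rw [k1, k2, k3, k4]; simp)⟩
  · simp only [x', Q_add, Q_smul, B_smul_right, h1, h.p0]; ring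
  · simp only [y']
    rw [Q_add, Q_comb h.p0 h.r0 h.pr, B_add_right, B_smul_right, B_smul_right, h3, h4]; ring
  · simp only [y', B_add_right, B_smul_right, k1, k2, B_comm x' y]; ring

/-- the index of a basis vector -/
def ix (a : Fin n ⊕ Fin n) : Fin n := Sum.elim id id a

theorem ix_swap (a : Fin n ⊕ Fin n) : ix a.swap = ix a := by cases a <;> rfl

theorem eq_or_of_ix {a b : Fin n ⊕ Fin n} (h : ix a = ix b) : a = b ∨ a = b.swap := by
  cases a <;> cases b <;> simp_all [ix]

theorem ne_of_ix {a b : Fin n ⊕ Fin n} (h : ix a ≠ ix b) : a ≠ b := fun e => h (e ▸ rfl)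

theorem B_ss {a b : Fin n ⊕ Fin n} (h : ix a ≠ ix b) :
    B (Pi.single a 1 : V) (Pi.single b 1) = 0 := by
  rw [B_single, Pi.single_eq_of_ne (ne_of_ix (by rw [ix_swap]; exact h.symm))]

theorem B_ss' (a : Fin n ⊕ Fin n) : B (Pi.single a.swap 1 : V) (Pi.single a 1) = 1 := by
  rw [B_single, Pi.single_eq_same]

theorem sl_single {a b : Fin n ⊕ Fin n} (h : ix a ≠ ix b) :
    SL (Pi.single a 1 : V) (Pi.single b 1) := by
  have hQ : ∀ c : Fin n ⊕ Fin n, Q (Pi.single c 1) = 0 := fun c => by
    cases c <;> simp [quadFormPlus]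
  refine ⟨li_of_dual (p := Pi.single a.swap 1) (r := Pi.single b.swap 1) ?_ ?_ ?_ ?_, hQ a, hQ b,
    B_ss h⟩
  · rw [B_comm, B_ss']
  · exact B_ss (by rwa [ix_swap])
  · exact B_ss (by rw [ix_swap]; exact h.symm)
  · rw [B_comm, B_ss']

theorem exists_third {m : ℕ} (i j : Fin (m + 3)) : ∃ k, k ≠ i ∧ k ≠ j := by
  by_contra! h
  have h0 := h 0
  have h1 := h 1
  have h2 := h 2
  simp only [ne_eq, Fin.ext_iff, Fin.val_zero, Fin.val_one, Fin.val_two] at h0 h1 h2
  omega

theorem connected {m : ℕ} : IsConnectedFamily (FAdj (Rg F (oc (m + 3) F) '' N (m + 3) F))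
    (Rg F (oc (m + 3) F) '' N (m + 3) F) := by
  have h := lf (F := F) (n := m + 3)
  have hni' : ∀ A ∈ Rg F (oc (m + 3) F) '' N (m + 3) F, NI (Rg F (oc (m + 3) F) '' N (m + 3) F) A := by
    rintro _ ⟨s, hs, rfl⟩
    obtain ⟨t, ht, k⟩ := ni s hs
    exact ⟨_, ⟨t, ht, rfl⟩, ro_of_psl2 (h.psl2 hs ht k)⟩
  have key : ∀ s ∈ N (m + 3) F, ∀ t ∈ N (m + 3) F, s * t ≠ t * s →
      FR (Rg F (oc (m + 3) F) '' N (m + 3) F) (Rg F (oc (m + 3) F) s) (Rg F (oc (m + 3) F) t) := by
    intro s hs t ht k
    by_contra l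
    exact k ((h.cm_iff' hs ht).1 (h.rs.cm_of_not_fr hni' ⟨s, hs, rfl⟩ ⟨t, ht, rfl⟩ l))
  let R : Fin (m + 3) ⊕ Fin (m + 3) → Fin (m + 3) ⊕ Fin (m + 3) → Prop := fun a b =>
    FR (Rg F (oc (m + 3) F) '' N (m + 3) F)
      (Rg F (oc (m + 3) F) (S (Pi.single (.inl 0) 1) (Pi.single (.inl 1) 1)))
      (Rg F (oc (m + 3) F) (S (Pi.single a 1) (Pi.single b 1)))
  have sy : ∀ a b, R a b → R b a := fun a b k => by
    have : S (Pi.single b 1) (Pi.single a 1) = (-1 : F) • S (F := F) (Pi.single a 1) (Pi.single b 1) := by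
      rw [neg_one_smul, S, S, neg_sub]
    simp only [R]
    rwa [this, Rg_smul (by simp)]
  have st : ∀ a b c, ix a ≠ ix b → ix a ≠ ix c → ix b ≠ ix c → R a b → R b.swap c :=
    fun a b c h1 h2 h3 k => by
      refine k.trans (key _ ⟨_, _, sl_single h1, rfl⟩ _ ⟨_, _, sl_single (by rwa [ix_swap]), rfl⟩
        fun e => ?_)
      have e1 := congrArg (· *ᵥ Pi.single c.swap 1) e
      have z1 : B (Pi.single c.swap 1) (Pi.single b.swap (1 : F)) = 0 :=
        B_ss (by rw [ix_swap, ix_swap]; exact h3.symm)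
      have z2 : B (Pi.single c.swap 1) (Pi.single b (1 : F)) = 0 := B_ss (by rw [ix_swap]; exact h3.symm)
      have z3 : B (Pi.single c.swap 1) (Pi.single a (1 : F)) = 0 := B_ss (by rw [ix_swap]; exact h2.symm)
      have z4 : B (Pi.single b.swap 1) (Pi.single a (1 : F)) = 0 := B_ss (by rw [ix_swap]; exact h1.symm)
      simp only [← mulVec_mulVec, S_mulVec, B_ss', z1, z2, z3, z4, zero_smul, one_smul, sub_zero,
        mulVec_zero] at e1
      simpa using congrFun e1 a
  have fl : ∀ a b, ix a ≠ ix b → R a b → R a.swap b := fun a b h1 k => by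
    obtain ⟨l, l1, l2⟩ := exists_third (ix a) (ix b)
    have k1 := st a b (.inl l) h1 l1.symm l2.symm k
    have k2 := st _ _ a.swap (by rw [ix_swap]; exact l2) (by rw [ix_swap]; exact l1)
      (by rw [ix_swap, ix_swap]; exact h1.symm) (sy _ _ k1)
    rw [Sum.swap_swap] at k2
    exact sy _ _ k2
  have al : ∀ a b, ix a ≠ ix b → R a b → ∀ c d, ix c = ix a → ix d = ix b → R c d := by
    intro a b h1 k c d hc hd
    have k1 : R c b := by
      rcases eq_or_of_ix hc with rfl | rfl
      · exact k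
      · exact fl _ _ h1 k
    rcases eq_or_of_ix hd with rfl | rfl
    · exact k1
    · exact sy _ _ (fl _ _ (by rw [hc]; exact h1.symm) (sy _ _ k1))
  have h01 : (0 : Fin (m + 3)) ≠ 1 := by simp
  have r00 : R (.inl 0) (.inl 1) := Relation.ReflTransGen.refl
  have r0 : ∀ j : Fin (m + 3), j ≠ 0 → R (.inr 0) (.inl j) := fun j hj => by
    by_cases k : j = 1
    · rw [k]; exact fl (.inl 0) (.inl 1) h01 r00
    · exact st (.inl 1) (.inl 0) (.inl j) h01.symm (Ne.symm k) hj.symm (sy _ _ r00)
  have r1 : ∀ a b, ix a ≠ ix b → R a b := fun a b h1 => by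
    by_cases k : ix a = 0
    · have k1 : ix b ≠ 0 := fun e => h1 (k.trans e.symm)
      exact al (.inr 0) (.inl (ix b)) k1.symm (r0 (ix b) k1) a b k rfl
    by_cases k' : ix b = 0
    · exact sy _ _ (al (.inr 0) (.inl (ix a)) (Ne.symm k) (r0 (ix a) k) b a k' rfl)
    · exact al (.inr (ix a)) b h1 (st (.inr 0) (.inl (ix a)) b (Ne.symm k) (Ne.symm k') h1 (r0 (ix a) k))
        a b rfl rfl
  have r2 : ∀ s ∈ N (m + 3) F, FR (Rg F (oc (m + 3) F) '' N (m + 3) F)
      (Rg F (oc (m + 3) F) (S (Pi.single (.inl 0) 1) (Pi.single (.inl 1) 1)))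
      (Rg F (oc (m + 3) F) s) := fun s hs => by
    by_contra l
    refine h.ne s hs (Matrix.ext fun c a => ?_)
    have k : ∀ b, ix a ≠ ix b → ∃ x y : F, s *ᵥ Pi.single a 1 = x • Pi.single a 1 - y • Pi.single b 1 :=
      fun b hb => by
        have e : S (Pi.single a 1) (Pi.single b 1) * s = s * S (Pi.single a 1) (Pi.single b 1) := by
          by_contra e
          exact l ((r1 a b hb).trans (key _ ⟨_, _, sl_single hb, rfl⟩ s hs e))
        have e1 := congrArg (· *ᵥ Pi.single b.swap 1) e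
        have z : B (Pi.single b.swap 1) (Pi.single a (1 : F)) = 0 :=
          B_ss (by rw [ix_swap]; exact hb.symm)
        simp only [← mulVec_mulVec, S_mulVec, B_ss', z, zero_smul, one_smul, sub_zero] at e1
        exact ⟨_, _, e1.symm⟩
    obtain ⟨j, hj, -⟩ := exists_third (ix a) (ix a)
    obtain ⟨x, y, e1⟩ := k (.inl j) hj.symm
    obtain ⟨x', y', e2⟩ := k (.inr j) hj.symm
    have hy : y = 0 := by
      have := congrFun (e1.symm.trans e2) (.inl j)
      simpa [ne_of_ix (a := .inl j) hj] using this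
    rw [hy, zero_smul, sub_zero] at e1
    have hx : x = 0 := by
      have : s *ᵥ s *ᵥ Pi.single a 1 = 0 := by rw [mulVec_mulVec, h.sq s hs, zero_mulVec]
      rw [e1, mulVec_smul, e1, smul_smul] at this
      simpa using congrFun this a
    simpa [hx] using congrFun e1 c
  rintro _ ⟨s, hs, rfl⟩ _ ⟨t, ht, rfl⟩
  exact (FR.symm (r2 s hs)).trans (r2 t ht)

theorem family_eq : {A : Subgroup (isometryGroup F Q) | ∃ p r : V, LinearIndependent F ![p, r] ∧
    Q p = 0 ∧ Q r = 0 ∧ Q (p + r) = 0 ∧ A = Subgroup.closure {σ : isometryGroup F Q | ∀ v : V,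
      Q (v + p) - Q v - Q p = 0 → Q (v + r) - Q v - Q r = 0 → σ.1.1 *ᵥ v = v}} =
    Rg F (oc n F) '' N n F := by
  have hB : ∀ v p : V, Q (v + p) - Q v - Q p = B v p := fun v p => by rw [Q_add]; ring
  simp only [hB]
  have key : ∀ p r : V, SL p r → Subgroup.closure {σ : isometryGroup F Q | ∀ v : V,
      B v p = 0 → B v r = 0 → σ.1.1 *ᵥ v = v} = Rg F (oc n F) (S p r) := fun p r h => by
    unfold Rg
    congr 1
    ext g
    constructor
    · intro (k : ∀ v : V, B v p = 0 → B v r = 0 → oc n F g *ᵥ v = v)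
      obtain ⟨x, h1, h2⟩ := exists_dual₁ h.li
      obtain ⟨y, h4, h3⟩ := exists_dual₁ (li_symm h.li)
      have k1 : ∀ v, oc n F g *ᵥ (v - B v p • x - B v r • y) = v - B v p • x - B v r • y := fun v =>
        k _ (by simp only [B_sub_left, B_smul_left, h1, h3]; ring)
          (by simp only [B_sub_left, B_smul_left, h2, h4]; ring)
      have k2 : ∀ v, ∃ a b : F, oc n F g *ᵥ v = v + (a • p + b • r) := fun v => by
        refine ⟨B (oc n F g *ᵥ v - v) x, B (oc n F g *ᵥ v - v) y, ?_⟩
        rw [← sub_eq_iff_eq_add']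
        refine eq_of_B fun w => ?_
        have := B_oc g v (w - B w p • x - B w r • y)
        rw [k1, ← sub_eq_zero, ← B_sub_left, B_sub_right, B_sub_right, B_smul_right, B_smul_right]
          at this
        rw [B_add_left, B_smul_left, B_smul_left, B_comm p, B_comm r]
        linear_combination this
      obtain ⟨a, b, e1⟩ := k2 x
      obtain ⟨c, d, e2⟩ := k2 y
      have q1 := Q_oc g x
      have q2 := Q_oc g y
      have q3 := B_oc g x y
      rw [e1, Q_add, Q_comb h.p0 h.r0 h.pr, B_add_right, B_smul_right, B_smul_right, h1, h2] at q1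
      rw [e2, Q_add, Q_comb h.p0 h.r0 h.pr, B_add_right, B_smul_right, B_smul_right, h3, h4] at q2
      rw [e1, e2] at q3
      simp only [B_add_left, B_add_right, B_smul_left, B_smul_right, h1, h2, B_comm p y, B_comm r y,
        h3, h4, h.pr, h.rp, B_self h.p0, B_self h.r0] at q3
      have ha : a = 0 := by linear_combination q1
      have hd : d = 0 := by linear_combination q2
      have hb : b = -c := by linear_combination q3
      refine ⟨c, mext fun v => ?_⟩
      have := k1 v
      rw [mulVec_sub, mulVec_sub, mulVec_smul, mulVec_smul, e1, e2, ha, hd, hb] at this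
      rw [add_mulVec, one_mulVec, smul_mulVec, S_mulVec]
      linear_combination (norm := module) this
    · rintro ⟨c, hc⟩ v h1 h2
      change oc n F g *ᵥ v = v
      rw [hc, add_mulVec, one_mulVec, smul_mulVec, S_mulVec, h1, h2]
      simp
  ext A
  constructor
  · rintro ⟨p, r, h1, h2, h3, h4, rfl⟩
    have h : SL p r := ⟨h1, h2, h3, by rwa [Q_add, h2, h3, zero_add, zero_add] at h4⟩
    exact ⟨_, ⟨p, r, h, rfl⟩, (key p r h).symm⟩
  · rintro ⟨_, ⟨p, r, h, rfl⟩, rfl⟩
    exact ⟨p, r, h.li, h.p0, h.r0, by rw [Q_add, h.p0, h.r0, h.pr]; ring, (key p r h).symm⟩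

end H89.Sg
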