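import Cfsg.Agent.Lib.Root.Transv
import Cfsg.Agent.Lib.Sp.Basic
import Cfsg.Agent.Lib.Unitary.Geom

/-! Symplectic and unitary transvection groups as root subgroups. -/

set_option autoImplicit false

namespace H89

open Cfsg Matrix

section sp
open H11.Sp
variable {F : Type*} [Field F] {m : ℕ}

/-- the symplectic transvection family -/
def NSp (m : ℕ) (F : Type*) [Field F] : Set (Matrix (Fin m ⊕ Fin m) (Fin m ⊕ Fin m) F) :=
  {s | ∃ p : V m F, p ≠ 0 ∧ ∃ c : F, c ≠ 0 ∧ s = vecMulVec (c • p) (J (Fin m) F *ᵥ p)}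

/-- the inclusion of `Sp` -/
def spc (m : ℕ) (F : Type*) [Field F] : G m F →* Matrix (Fin m ⊕ Fin m) (Fin m ⊕ Fin m) F :=
  ⟨⟨fun g => g.1, rfl⟩, fun _ _ => rfl⟩

theorem spc_tv (p : V m F) (c : F) : spc m F (tv p c) = 1 + c • vecMulVec p (J (Fin m) F *ᵥ p) := rfl

theorem J_dot (p w : V m F) (c : F) : (J (Fin m) F *ᵥ p) ⬝ᵥ (c • w) = c * sympForm m F w p := by
  rw [dotProduct_smul, dotProduct_comm]; rfl

theorem J_ne_zero {p : V m F} (hp : p ≠ 0) : J (Fin m) F *ᵥ p ≠ 0 := fun e => by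
  obtain ⟨v, hv⟩ := exists_form_ne_zero hp
  exact hv (by rw [form_swap, form_def, e, dotProduct_zero, neg_zero])

theorem sp_pair : ∀ s ∈ NSp m F, ∀ t ∈ NSp m F, s * t = t * s ∨ Opp F s t := by
  rintro _ ⟨p, hp, c, hc, rfl⟩ _ ⟨r, hr, d, hd, rfl⟩
  by_cases h : sympForm m F r p = 0
  · left
    rw [vv_mul, vv_mul, J_dot, J_dot, form_swap p r, h]; simp
  · refine Or.inr ⟨_, ?_, vv_mul3 _ _ _ _, by rw [vv_mul3, mul_comm]⟩
    rw [J_dot, J_dot, form_swap p r]
    exact mul_ne_zero (mul_ne_zero hd h) (mul_ne_zero hc (neg_ne_zero.2 h))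

theorem lf_sp : LF F (spc m F) (NSp m F) where
  inj := fun _ _ e => Subtype.ext e
  sq := by rintro _ ⟨p, -, c, -, rfl⟩; rw [vv_mul, J_dot, form_self, mul_zero, zero_smul]
  ne := by
    rintro _ ⟨p, hp, c, hc, rfl⟩; exact vecMulVec_ne_zero (smul_ne_zero hc hp) (J_ne_zero hp)
  ex := by
    rintro _ ⟨p, -, c, -, rfl⟩ d
    exact ⟨tv p (d * c), by rw [spc_tv, smul_vecMulVec, smul_smul]⟩
  smul := by
    rintro _ ⟨p, hp, c, hc, rfl⟩ d hd
    exact ⟨p, hp, d * c, mul_ne_zero hd hc, by rw [← smul_vecMulVec, smul_smul]⟩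
  conj := by
    rintro _ ⟨p, hp, c, hc, rfl⟩ g
    refine ⟨_, H11.Sp.mulVec_ne_zero g hp, c, hc, ?_⟩
    have := congrArg (spc m F) (conj_tv g p c)
    rw [map_mul, map_mul, spc_tv, spc_tv, mul_add, add_mul, mul_one, ← map_mul, mul_inv_cancel,
      map_one, add_right_inj] at this
    rw [smul_vecMulVec, smul_vecMulVec, this]
  pair := fun s hs t ht => (sp_pair s hs t ht).imp_right Or.inl

theorem sp_connected :
    IsConnectedFamily (FAdj (Rg F (spc m F) '' NSp m F)) (Rg F (spc m F) '' NSp m F) := by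
  refine lf_sp.connected ?_ ?_
  · rintro _ ⟨p, hp, c, hc, rfl⟩
    obtain ⟨r, hr⟩ := exists_form_ne_zero hp
    refine ⟨_, ⟨r, fun e => hr (by rw [e, form_zero_right]), 1, one_ne_zero, rfl⟩, _, ?_,
      vv_mul3 _ _ _ _, by rw [vv_mul3, mul_comm]⟩
    rw [J_dot, J_dot, form_swap r p, one_mul]
    exact mul_ne_zero (neg_ne_zero.2 hr) (mul_ne_zero hc hr)
  · rintro _ ⟨p, hp, c, hc, rfl⟩ _ ⟨r, hr, d, hd, rfl⟩ -
    obtain ⟨x, h1, h2⟩ := exists_dot_ne₂ (J_ne_zero hp) (J_ne_zero hr)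
    have hx : x ≠ 0 := fun e => h1 (by rw [e, dotProduct_zero])
    refine ⟨_, ⟨x, hx, 1, one_ne_zero, rfl⟩,
      vv_ne_comm (smul_ne_zero hc hp) (J_ne_zero hp) (J_ne_zero hx) ?_ (by rwa [one_smul]),
      vv_ne_comm (smul_ne_zero hd hr) (J_ne_zero hr) (J_ne_zero hx) ?_ (by rwa [one_smul])⟩ <;>
    rw [J_dot, form_self, mul_zero]

theorem sp_generated : (⨆ A ∈ Rg F (spc m F) '' NSp m F, A) = ⊤ := by
  rw [eq_top_iff, ← closure_tv, Subgroup.closure_le]
  rintro _ ⟨w, c, rfl⟩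
  by_cases hw : w = 0
  · rw [hw, zero_tv]; exact one_mem _
  · exact (le_iSup₂_of_le _ ⟨_, ⟨w, hw, 1, one_ne_zero, rfl⟩, rfl⟩ le_rfl :
      _ ≤ ⨆ A ∈ Rg F (spc m F) '' NSp m F, A)
      (Subgroup.subset_closure ⟨c, by rw [spc_tv, one_smul]⟩)

theorem sp_family_eq : {A : Subgroup (G m F) | ∃ p : V m F, p ≠ 0 ∧
    A = Subgroup.closure {g : G m F | ∃ c : F, ∀ v : V m F,
      g.1 *ᵥ v = v + (c * (v ⬝ᵥ (J (Fin m) F *ᵥ p))) • p}} = Rg F (spc m F) '' NSp m F := by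
  have key : ∀ p : V m F, Subgroup.closure {g : G m F | ∃ c : F, ∀ v : V m F,
      g.1 *ᵥ v = v + (c * (v ⬝ᵥ (J (Fin m) F *ᵥ p))) • p} =
      Rg F (spc m F) (vecMulVec p (J (Fin m) F *ᵥ p)) := fun p => by
    unfold Rg
    congr 1
    ext g
    refine exists_congr fun c => ⟨fun k => ?_, fun k v => ?_⟩
    · rw [← spc_tv, ext_mulVec (g := g) (h := tv p c) fun v => (k v).trans (tv_mulVec p c v).symm]
    · rw [lf_sp.inj (k.trans (spc_tv p c).symm)]; exact tv_mulVec p c v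
  ext A
  constructor
  · rintro ⟨p, hp, rfl⟩
    exact ⟨_, ⟨p, hp, 1, one_ne_zero, rfl⟩, by rw [key, one_smul]⟩
  · rintro ⟨_, ⟨p, hp, c, hc, rfl⟩, rfl⟩
    exact ⟨p, hp, by rw [key, smul_vecMulVec, Rg_smul hc]⟩

end sp

section su
open H11.U
variable {F : Type*} [Field F] [Fintype F] {q n : ℕ} [IsSq F q]

/-- the unitary transvection family -/
def NSU (n : ℕ) (F : Type*) [Field F] [Fintype F] (q : ℕ) [IsSq F q] :
    Set (Matrix (Fin n) (Fin n) F) :=
  {s | ∃ p : Fin n → F, p ≠ 0 ∧ hermForm n F q p p = 0 ∧ ∃ c : F, c ≠ 0 ∧ H11.U.cj q c = -c ∧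
    s = vecMulVec (c • p) (fun j => H11.U.cj q (p j))}

/-- the inclusion of `SU` -/
def suc (n : ℕ) (F : Type*) [Field F] (q : ℕ) : SU n F q →* Matrix (Fin n) (Fin n) F :=
  ⟨⟨fun g => g.1.1, rfl⟩, fun _ _ => rfl⟩

theorem suc_tv {p : Fin n → F} (hp : hermForm n F q p p = 0) {c : F} (hc : H11.U.cj q c = -c) :
    suc n F q (tv q p c) = 1 + c • vecMulVec p (fun j => H11.U.cj q (p j)) := tv_val hp hc

theorem cj_dot (p w : Fin n → F) (c : F) :
    (fun j => H11.U.cj q (p j)) ⬝ᵥ (c • w) = c * hermForm n F q w p := by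
  rw [dotProduct_smul, dotProduct_comm]; rfl

theorem cjv_ne_zero {p : Fin n → F} (hp : p ≠ 0) : (fun j => H11.U.cj q (p j)) ≠ 0 := fun e =>
  hp (funext fun j => cj_eq_zero.1 (congrFun e j))

variable {K : Type*} [Field K] [Algebra K F]
  (hK : ∀ x : F, H11.U.cj q x = x ↔ ∃ k, algebraMap K F k = x)
include hK

theorem su_opp {p r : Fin n → F} {c d : F} (hc : c ≠ 0) (hd : d ≠ 0) (hc' : H11.U.cj q c = -c)
    (hd' : H11.U.cj q d = -d) (h : hermForm n F q r p ≠ 0) :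
    Opp K (vecMulVec (c • p) (fun j => H11.U.cj q (p j)))
      (vecMulVec (d • r) (fun j => H11.U.cj q (r j))) := by
  obtain ⟨k, hk⟩ := (hK (d * hermForm n F q r p * (c * hermForm n F q p r))).1 (by
    rw [map_mul, map_mul, map_mul, hc', hd', cj_form, cj_form]; ring)
  refine ⟨k, fun e => ?_, ?_, ?_⟩
  · rw [e, map_zero] at hk
    exact mul_ne_zero (mul_ne_zero hd h) (mul_ne_zero hc (form_ne_zero_symm h)) hk.symm
  · rw [vv_mul3, cj_dot, cj_dot, ← hk, algebraMap_smul]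
  · rw [vv_mul3, cj_dot, cj_dot, mul_comm, ← hk, algebraMap_smul]

theorem su_pair : ∀ s ∈ NSU n F q, ∀ t ∈ NSU n F q, s * t = t * s ∨ Opp K s t := by
  rintro _ ⟨p, -, -, c, hc, hc', rfl⟩ _ ⟨r, -, -, d, hd, hd', rfl⟩
  by_cases h : hermForm n F q r p = 0
  · left
    rw [vv_mul, vv_mul, cj_dot, cj_dot, form_eq_zero_symm h, h]; simp
  · exact Or.inr (su_opp hK hc hd hc' hd' h)

theorem cj_alg_mul (k : K) {c : F} (hc : H11.U.cj q c = -c) :
    H11.U.cj q (algebraMap K F k * c) = -(algebraMap K F k * c) := by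
  rw [map_mul, (hK _).2 ⟨k, rfl⟩, hc, mul_neg]

theorem lf_su : LF K (suc n F q) (NSU n F q) where
  inj := fun _ _ e => Subtype.ext (Subtype.ext e)
  sq := by rintro _ ⟨p, -, hp, c, -, -, rfl⟩; rw [vv_mul, cj_dot, hp, mul_zero, zero_smul]
  ne := by
    rintro _ ⟨p, hp, -, c, hc, -, rfl⟩; exact vecMulVec_ne_zero (smul_ne_zero hc hp) (cjv_ne_zero hp)
  ex := by
    rintro _ ⟨p, -, hp, c, -, hc, rfl⟩ d
    exact ⟨tv q p (algebraMap K F d * c), by
      rw [suc_tv hp (cj_alg_mul hK d hc), smul_vecMulVec, mul_smul, algebraMap_smul]⟩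
  smul := by
    rintro _ ⟨p, hp, hp', c, hc, hc', rfl⟩ d hd
    exact ⟨p, hp, hp', algebraMap K F d * c, mul_ne_zero ((map_ne_zero _).2 hd) hc,
      cj_alg_mul hK d hc', by rw [smul_vecMulVec, smul_vecMulVec, mul_smul, algebraMap_smul]⟩
  conj := by
    rintro _ ⟨p, hp, hp', c, hc, hc', rfl⟩ g
    have hq : hermForm n F q (g.1.1 *ᵥ p) (g.1.1 *ᵥ p) = 0 := by rw [su_form, hp']
    refine ⟨_, su_ne_zero g hp, hq, c, hc, hc', ?_⟩
    have := congrArg (suc n F q) (conj_tv g p c)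
    rw [map_mul, map_mul, suc_tv hp' hc', suc_tv hq hc', mul_add, add_mul, mul_one, ← map_mul,
      mul_inv_cancel, map_one, add_right_inj] at this
    rw [smul_vecMulVec, smul_vecMulVec, this]
  pair := fun s hs t ht => (su_pair hK s hs t ht).imp_right Or.inl

theorem su_connected :
    IsConnectedFamily (FAdj (Rg K (suc n F q) '' NSU n F q)) (Rg K (suc n F q) '' NSU n F q) := by
  refine (lf_su hK).connected ?_ ?_
  · rintro _ ⟨p, hp, hp', c, hc, hc', rfl⟩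
    obtain ⟨r, -, hr, k⟩ := nondeg_top.exists_partner (u := p) trivial hp hp' 1 one_ne_zero
    have k' : hermForm n F q r p ≠ 0 := by rw [form_eq_one_symm k]; exact one_ne_zero
    exact ⟨_, ⟨r, fun e => k' (by rw [e, form_zero_left]), hr, c, hc, hc', rfl⟩,
      su_opp hK hc hc hc' hc' k'⟩
  · rintro _ ⟨p, hp, hp', c, hc, hc', rfl⟩ _ ⟨r, hr, hr', d, hd, hd', rfl⟩ e
    have h0 : hermForm n F q r p = 0 := by
      by_contra k
      exact vv_ne_comm (smul_ne_zero hc hp) (cjv_ne_zero hp) (cjv_ne_zero hr)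
        (by rw [cj_dot, hp', mul_zero]) (by rw [cj_dot]; exact mul_ne_zero hd k) e
    obtain ⟨x, -, hx', h1, h2⟩ :=
      nondeg_top.exists_isotropic_both (u := p) (u' := r) trivial trivial hp hr hp' h0
    have hx : x ≠ 0 := fun e => h1 (by rw [e, form_zero_right])
    exact ⟨_, ⟨x, hx, hx', c, hc, hc', rfl⟩,
      vv_ne_comm (smul_ne_zero hc hp) (cjv_ne_zero hp) (cjv_ne_zero hx) (by rw [cj_dot, hp', mul_zero])
        (by rw [cj_dot]; exact mul_ne_zero hc (form_ne_zero_symm h1)),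
      vv_ne_comm (smul_ne_zero hd hr) (cjv_ne_zero hr) (cjv_ne_zero hx) (by rw [cj_dot, hr', mul_zero])
        (by rw [cj_dot]; exact mul_ne_zero hc (form_ne_zero_symm h2))⟩

theorem su_family_eq : {A : Subgroup (SU n F q) | ∃ p : Fin n → F, p ≠ 0 ∧ hermForm n F q p p = 0 ∧
    A = Subgroup.closure {g : SU n F q | (∀ v : Fin n → F, ∃ c : F, g.1.1 *ᵥ v = v + c • p) ∧
      ∀ v : Fin n → F, hermForm n F q v p = 0 → g.1.1 *ᵥ v = v}} =
    Rg K (suc n F q) '' NSU n F q := by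
  have key : ∀ p : Fin n → F, p ≠ 0 → hermForm n F q p p = 0 → ∀ e : F, e ≠ 0 → H11.U.cj q e = -e →
      Subgroup.closure {g : SU n F q | (∀ v : Fin n → F, ∃ c : F, g.1.1 *ᵥ v = v + c • p) ∧
      ∀ v : Fin n → F, hermForm n F q v p = 0 → g.1.1 *ᵥ v = v} =
      Rg K (suc n F q) (vecMulVec (e • p) (fun j => H11.U.cj q (p j))) := fun p hp hp' e he he' => by
    unfold Rg
    congr 1
    ext g
    constructor
    · rintro ⟨h1, h2⟩
      obtain ⟨r, -, -, k⟩ := nondeg_top.exists_partner (u := p) trivial hp hp' 1 one_ne_zero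
      obtain ⟨c, hc⟩ := h1 r
      have h3 : g.1.1 = unitaryTransvection n q p c := by
        refine Matrix.toLin'.injective (LinearMap.ext fun v => ?_)
        have := h2 (v - hermForm n F q v p • r) (by
          rw [form_sub_left, form_smul_left, form_eq_one_symm k, mul_one, sub_self])
        rw [mulVec_sub, mulVec_smul, hc, sub_eq_iff_eq_add] at this
        rw [toLin'_apply, toLin'_apply, ut_mulVec, this, smul_add, smul_smul, mul_comm c]
        abel
      have h4 := (ut_isIso_iff hp).1 (h3 ▸ g.2 : IsIso q (unitaryTransvection n q p c))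
      rw [hp', mul_zero, add_zero] at h4
      obtain ⟨k, hk⟩ := (hK (c / e)).1 (by
        rw [map_div₀, he', eq_neg_of_add_eq_zero_right h4, neg_div_neg_eq])
      refine ⟨k, h3.trans ?_⟩
      rw [smul_vecMulVec, ← algebraMap_smul F k, smul_smul, hk, div_mul_cancel₀ _ he]
      rfl
    · rintro ⟨k, hk⟩
      have h3 : g.1.1 = unitaryTransvection n q p (algebraMap K F k * e) := by
        refine hk.trans ?_
        rw [smul_vecMulVec, ← algebraMap_smul F k, smul_smul]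
        rfl
      refine ⟨fun v => ⟨_, by rw [h3, ut_mulVec]⟩, fun v hv => ?_⟩
      rw [h3, ut_mulVec, hv, mul_zero, zero_smul, add_zero]
  obtain ⟨e, he, he'⟩ := exists_trace_zero F q
  ext A
  constructor
  · rintro ⟨p, hp, hp', rfl⟩
    exact ⟨_, ⟨p, hp, hp', e, he, he', rfl⟩, (key p hp hp' e he he').symm⟩
  · rintro ⟨_, ⟨p, hp, hp', c, hc, hc', rfl⟩, rfl⟩
    exact ⟨p, hp, hp', (key p hp hp' c hc hc').symm⟩

end su

end H89
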