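import Cfsg.Agent.Lib.Root.Lin
import Cfsg.Agent.Lib.Root.Inv
import Cfsg.Agent.Lib.SLGen.Basic

/-! Transvection groups of special linear groups as root subgroups. -/

set_option autoImplicit false

namespace H89

open Cfsg Matrix

variable {F : Type*} [Field F] {ι : Type*} [Fintype ι]

theorem vv_mul (v f w g : ι → F) : vecMulVec v f * vecMulVec w g = (f ⬝ᵥ w) • vecMulVec v g := by
  rw [vecMulVec_mul_vecMulVec, vecMulVec_smul]

theorem vv_mul3 (v f w g : ι → F) :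
    vecMulVec v f * vecMulVec w g * vecMulVec v f = ((f ⬝ᵥ w) * (g ⬝ᵥ v)) • vecMulVec v f := by
  rw [vv_mul, smul_mul_assoc, vv_mul, smul_smul]

theorem vv_mulVec (v f x : ι → F) : vecMulVec v f *ᵥ x = (f ⬝ᵥ x) • v := by
  rw [vecMulVec_mulVec, op_smul_eq_smul]

theorem vv_ne_comm {v f w g : ι → F} (hv : v ≠ 0) (hf : f ≠ 0) (hg : g ≠ 0) (h0 : f ⬝ᵥ v = 0)
    (h : f ⬝ᵥ w ≠ 0) : vecMulVec v f * vecMulVec w g ≠ vecMulVec w g * vecMulVec v f := by
  intro e
  have e1 := congrArg (vecMulVec v f * ·) e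
  simp only [← mul_assoc] at e1
  rw [vv_mul3, vv_mul v f v f, h0, zero_smul, zero_mul, eq_comm, smul_eq_zero, mul_eq_zero] at e1
  have e2 : g ⬝ᵥ v = 0 := (e1.resolve_right (vecMulVec_ne_zero hv hf)).resolve_left h
  rw [vv_mul, vv_mul, e2, zero_smul, smul_eq_zero] at e
  exact (e.resolve_left h |> vecMulVec_ne_zero hv hg)

theorem exists_dot_ne {f : ι → F} (hf : f ≠ 0) : ∃ x, f ⬝ᵥ x ≠ 0 := by
  classical
  obtain ⟨i, hi⟩ := Function.ne_iff.1 hf
  exact ⟨Pi.single i 1, by simpa using hi⟩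

theorem exists_dot_ne₂ {f g : ι → F} (hf : f ≠ 0) (hg : g ≠ 0) : ∃ x, f ⬝ᵥ x ≠ 0 ∧ g ⬝ᵥ x ≠ 0 := by
  obtain ⟨x, hx⟩ := exists_dot_ne hf
  obtain ⟨y, hy⟩ := exists_dot_ne hg
  by_cases h1 : g ⬝ᵥ x = 0
  · by_cases h2 : f ⬝ᵥ y = 0
    · exact ⟨x + y, by rwa [dotProduct_add, h2, add_zero], by rwa [dotProduct_add, h1, zero_add]⟩
    · exact ⟨y, h2, hy⟩
  · exact ⟨x, hx, h1⟩

theorem exists_dot_zero [Nontrivial ι] (x : ι → F) : ∃ h : ι → F, h ≠ 0 ∧ h ⬝ᵥ x = 0 := by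
  classical
  obtain ⟨i, j, hij⟩ := exists_pair_ne ι
  by_cases h : x i = 0
  · exact ⟨Pi.single i 1, by simp, by simp [h]⟩
  · refine ⟨Pi.single j (x i) - Pi.single i (x j), fun e => h ?_, by simp [sub_dotProduct, mul_comm]⟩
    simpa [hij, hij.symm] using congrFun e j

variable [DecidableEq ι]

theorem mulVec_ne_zero {A B : Matrix ι ι F} (h : B * A = 1) {v : ι → F} (hv : v ≠ 0) : A *ᵥ v ≠ 0 :=
  fun e => hv (by rw [← one_mulVec v, ← h, ← mulVec_mulVec, e, mulVec_zero])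

theorem vecMul_ne_zero {A B : Matrix ι ι F} (h : B * A = 1) {v : ι → F} (hv : v ≠ 0) : v ᵥ* B ≠ 0 :=
  fun e => hv (by rw [← vecMul_one v, ← h, ← vecMul_vecMul, e, zero_vecMul])

/-- the transvection family -/
def NSL (ι F : Type*) [Field F] [Fintype ι] : Set (Matrix ι ι F) :=
  {s | ∃ v f : ι → F, v ≠ 0 ∧ f ≠ 0 ∧ f ⬝ᵥ v = 0 ∧ s = vecMulVec v f}

/-- the inclusion of `SL` -/
def slc (ι F : Type*) [Field F] [Fintype ι] [DecidableEq ι] : SpecialLinearGroup ι F →* Matrix ι ι F :=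
  ⟨⟨fun g => g.1, rfl⟩, fun _ _ => rfl⟩

theorem slc_apply (g : SpecialLinearGroup ι F) : slc ι F g = g.1 := rfl

theorem lf_sl : LF F (slc ι F) (NSL ι F) where
  inj := fun _ _ e => Subtype.ext e
  sq := by rintro _ ⟨v, f, -, -, h, rfl⟩; rw [vv_mul, h, zero_smul]
  ne := by rintro _ ⟨v, f, hv, hf, -, rfl⟩; exact vecMulVec_ne_zero hv hf
  ex := by
    rintro _ ⟨v, f, -, -, h, rfl⟩ c
    exact ⟨H64.SLGen.tv (c • v) f (by rw [dotProduct_smul, h, smul_zero]), by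
      rw [← smul_vecMulVec]; rfl⟩
  smul := by
    rintro _ ⟨v, f, hv, hf, h, rfl⟩ c hc
    exact ⟨c • v, f, smul_ne_zero hc hv, hf, by rw [dotProduct_smul, h, smul_zero],
      (smul_vecMulVec _ _ _).symm⟩
  conj := by
    rintro _ ⟨v, f, hv, hf, h, rfl⟩ g
    have e : slc ι F g⁻¹ * slc ι F g = 1 := by rw [← map_mul, inv_mul_cancel, map_one]
    refine ⟨_, _, mulVec_ne_zero e hv, vecMul_ne_zero e hf, ?_, by rw [mul_vecMulVec, vecMulVec_mul]⟩
    rw [← dotProduct_mulVec, mulVec_mulVec, e, one_mulVec, h]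
  pair := by
    rintro _ ⟨v, f, hv, hf, h, rfl⟩ _ ⟨w, g, hw, hg, h', rfl⟩
    by_cases h1 : f ⬝ᵥ w = 0
    · by_cases h2 : g ⬝ᵥ v = 0
      · left; rw [vv_mul, vv_mul, h1, h2, zero_smul, zero_smul]
      · refine Or.inr (Or.inr ⟨by rw [vv_mul3, h1]; simp, by rw [vv_mul3, h1]; simp,
          (-(g ⬝ᵥ v)) • w, f, smul_ne_zero (neg_ne_zero.2 h2) hw, hf,
          by rw [dotProduct_smul, h1, smul_zero], ?_⟩)
        rw [vv_mul, vv_mul, h1, zero_smul, zero_sub, smul_vecMulVec, neg_smul]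
    · by_cases h2 : g ⬝ᵥ v = 0
      · refine Or.inr (Or.inr ⟨by rw [vv_mul3, h2]; simp, by rw [vv_mul3, h2]; simp,
          (f ⬝ᵥ w) • v, g, smul_ne_zero h1 hv, hg, by rw [dotProduct_smul, h2, smul_zero], ?_⟩)
        rw [vv_mul, vv_mul, h2, zero_smul, sub_zero, smul_vecMulVec]
      · exact Or.inr (Or.inl ⟨_, mul_ne_zero h1 h2, vv_mul3 _ _ _ _, by rw [vv_mul3, mul_comm]⟩)

theorem single_mem_NSL {i j : ι} (h : i ≠ j) : single i j (1 : F) ∈ NSL ι F :=
  ⟨Pi.single i 1, Pi.single j 1, by simp, by simp, by simp [h], single_eq_single_vecMulVec_single i j⟩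

omit [Fintype ι] in
theorem transvection_eq (i j : ι) (c : F) : transvection i j c = 1 + c • single i j (1 : F) := by
  rw [transvection, smul_single, smul_eq_mul, mul_one]

theorem sl_connected [Nontrivial ι] :
    IsConnectedFamily (FAdj (Rg F (slc ι F) '' NSL ι F)) (Rg F (slc ι F) '' NSL ι F) := by
  refine lf_sl.connected ?_ ?_
  · rintro _ ⟨v, f, hv, hf, h, rfl⟩
    obtain ⟨w, hw⟩ := exists_dot_ne hf
    obtain ⟨g, hg⟩ := exists_dot_ne hv
    have k1 : (g - ((g ⬝ᵥ w) / (f ⬝ᵥ w)) • f) ⬝ᵥ v = v ⬝ᵥ g := by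
      rw [sub_dotProduct, smul_dotProduct, h, smul_zero, sub_zero, dotProduct_comm]
    refine ⟨_, ⟨w, g - ((g ⬝ᵥ w) / (f ⬝ᵥ w)) • f, fun e => hw (by rw [e, dotProduct_zero]),
      fun e => hg (by rw [← k1, e, zero_dotProduct]), ?_, rfl⟩, _, mul_ne_zero hw (k1 ▸ hg),
      vv_mul3 _ _ _ _, by rw [vv_mul3, mul_comm]⟩
    rw [sub_dotProduct, smul_dotProduct, smul_eq_mul, div_mul_cancel₀ _ hw, sub_self]
  · rintro _ ⟨v, f, hv, hf, h, rfl⟩ _ ⟨w, g, hw, hg, h', rfl⟩ -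
    obtain ⟨x, h1, h2⟩ := exists_dot_ne₂ hf hg
    obtain ⟨k, h3, h4⟩ := exists_dot_zero x
    exact ⟨_, ⟨x, k, fun e => h1 (by rw [e, dotProduct_zero]), h3, h4, rfl⟩,
      vv_ne_comm hv hf h3 h h1, vv_ne_comm hw hg h3 h' h2⟩

theorem sl_generated : (⨆ A ∈ Rg F (slc ι F) '' NSL ι F, A) = ⊤ := by
  refine H10.SL_eq_top_of_transvection_mem _ fun i j hij c => ?_
  refine (le_iSup₂_of_le _ ⟨_, single_mem_NSL hij, rfl⟩ le_rfl : _ ≤ ⨆ A ∈ Rg F (slc ι F) '' NSL ι F, A)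
    (Subgroup.subset_closure ⟨c, ?_⟩)
  rw [← transvection_eq]; rfl

theorem sl_family_eq [Nontrivial ι] {i j : ι} (h : i ≠ j) :
    {A : Subgroup (SpecialLinearGroup ι F) | ∃ g, A = conjBy (Subgroup.closure
      {t : SpecialLinearGroup ι F | ∃ c : F, (t : Matrix ι ι F) = transvection i j c}) g} =
      Rg F (slc ι F) '' NSL ι F := by
  have e : Subgroup.closure {t : SpecialLinearGroup ι F | ∃ c : F, (t : Matrix ι ι F) =
      transvection i j c} = Rg F (slc ι F) (single i j 1) := by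
    simp only [transvection_eq]; rfl
  rw [e]
  ext A
  constructor
  · rintro ⟨g, rfl⟩
    exact lf_sl.rs.cj_mem _ ⟨_, single_mem_NSL h, rfl⟩ g
  · intro hA
    exact FR.exists_conj (sl_connected _ ⟨_, single_mem_NSL h, rfl⟩ A hA)

/-! ### characteristic two -/

theorem odd_xx_yy [Finite F] [CharP F 2] {a b : F} (ha : a ≠ 0) (hb : b ≠ 0) :
    Odd (orderOf (xx a * yy b)) := by
  by_contra hn
  have h2 := H9.orderOf_pow_half (Nat.not_odd_iff_even.1 hn)
  have hc : Commute ((xx a * yy b) ^ (orderOf (xx a * yy b) / 2)) (xx a * yy b) :=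
    Commute.pow_left rfl _
  generalize (xx a * yy b) ^ (orderOf (xx a * yy b) / 2) = h at h2 hc
  have h3 := iv (H9.mul_self_of_orderOf_two h2)
  have two : (2 : F) = 0 := CharTwo.two_eq_zero
  have e0 := congrArg (fun g : SLt F => g.1 0 0) h3
  have e1 := congrArg (fun g : SLt F => g.1 0 0) hc.eq
  have e2 := congrArg (fun g : SLt F => g.1 0 1) hc.eq
  have hd := sl_det h
  simp only [ent] at e0 e1 e2
  have r0 : h.1 0 1 = 0 := by
    have : a * b * h.1 0 1 = 0 := by linear_combination -e2 - a * e0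
    exact (mul_eq_zero.1 this).resolve_left (mul_ne_zero ha hb)
  have s0 : h.1 1 0 = 0 := by
    have : a * h.1 1 0 = 0 := by linear_combination -e1 + b * r0
    exact (mul_eq_zero.1 this).resolve_left ha
  have p1 : h.1 0 0 = 1 := by
    have : (h.1 0 0 - 1) ^ 2 = 0 := by
      linear_combination hd - h.1 0 0 * e0 + h.1 1 0 * r0 + (1 - h.1 0 0) * two
    exact sub_eq_zero.1 (pow_eq_zero_iff two_ne_zero |>.1 this)
  exact H9.ne_one_of_orderOf_two h2 (sl_ext p1 r0 s0 (e0.trans p1))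

section
variable {Γ : Type*} [Group Γ] {R : Type*} [Ring R] [Algebra F R] {ρ : Γ →* R} {N : Set R}

/-- the root elements of a linear family in characteristic two -/
theorem LF.pair_two [Finite F] [CharP F 2] (h : LF F ρ N) {a b : Γ} {s t : R} (hs : s ∈ N) (ht : t ∈ N)
    (ha : ρ a = 1 + s) (hb : ρ b = 1 + t) : a * b = b * a ∨
      (Odd (orderOf (a * b)) ∧ (Nat.card F = 2 → (a * b) ^ 3 = 1)) ∨
      (orderOf (a * b) = 4 ∧ ∃ u ∈ N, ρ ((a * b) ^ 2) = 1 + u) := by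
  have ha' : ρ a = 1 + (1 : F) • s := by rwa [one_smul]
  have hb' : ρ b = 1 + (1 : F) • t := by rwa [one_smul]
  have ma := (mem_Rg (h.sq s hs)).2 ⟨_, ha'⟩
  have mb := (mem_Rg (h.sq t ht)).2 ⟨_, hb'⟩
  have sq : ∀ u ∈ N, ∀ g, ρ g = 1 + u → g * g = 1 := fun u hu g hg => h.inj (by
    rw [map_mul, hg, ← one_smul F u, one_add_mul (h.sq u hu), CharTwo.add_self_eq_zero, zero_smul,
      add_zero, map_one])
  rcases h.pair s hs t ht with k | k | k
  · exact Or.inl ((h.cm_iff' hs ht).2 k a ma b mb)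
  · obtain ⟨φ, -, -, h3, h4⟩ := h.psl2 hs ht k
    rw [← h3] at ma
    rw [← h4] at mb
    obtain ⟨x, hx, rfl⟩ := ma
    obtain ⟨y, hy, rfl⟩ := mb
    obtain ⟨c, rfl⟩ := mem_upper.1 hx
    obtain ⟨d, rfl⟩ := mem_lower.1 hy
    have hc : c ≠ 0 := by
      rintro rfl
      exact h.ne_one hs one_ne_zero ha' (by rw [xx_zero, map_one])
    have hd : d ≠ 0 := by
      rintro rfl
      exact h.ne_one ht one_ne_zero hb' (by rw [yy_zero, map_one])
    rw [← map_mul]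
    refine Or.inr (Or.inl ⟨(odd_xx_yy hc hd).of_dvd_nat (orderOf_map_dvd _ _), fun h2 => ?_⟩)
    have one : ∀ z : F, z ≠ 0 → z = 1 := fun z hz => by
      have := Fintype.ofFinite F
      have := FiniteField.pow_card_sub_one_eq_one z hz
      rwa [← Nat.card_eq_fintype_card, h2, pow_one] at this
    have two : (2 : F) = 0 := CharTwo.two_eq_zero
    rw [← map_pow, one c hc, one d hd]
    have : (xx (1 : F) * yy 1) ^ 3 = 1 := by
      apply sl_ext <;> simp only [pow_three, ent]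
      · linear_combination 6 * two
      · linear_combination 4 * two
      · linear_combination 4 * two
      · linear_combination 2 * two
    rw [this, map_one]
  · have e : ρ ((a * b) ^ 2) = 1 + (s * t - t * s) := by
      have := h.comm_val hs ht k.1 k.2.1 ha' hb'
      rwa [iv (sq s hs a ha), iv (sq t ht b hb), mul_one, one_smul, ← cm, cm_eq_sq] at this
    refine Or.inr (Or.inr ⟨?_, _, k.2.2, e⟩)
    refine orderOf_eq_prime_pow (p := 2) (n := 1) ?_ ?_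
    · exact h.ne_one k.2.2 one_ne_zero (by rw [pow_one, e, one_smul])
    · rw [show 2 ^ (1 + 1) = 2 + 2 by norm_num, pow_add]
      exact sq _ k.2.2 _ e

end

end H89
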